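import Cfsg.Agent.Lib.Geometric.OrthMonomial.Central

/-!
A non-monomial overgroup of the signed even permutations, in dimension at least ten, has a
non-monomial element fixing a coordinate line.
-/

set_option autoImplicit false

namespace CfsgLib.OMon

open CfsgLib.Geometric Finset Matrix

variable {ι : Type} [Fintype ι] [DecidableEq ι] {F : Type*} [Field F] [Finite F]

local notation "e[" j "]" => (Pi.single j (1 : _) : ι → _)

omit [Fintype ι] [DecidableEq ι] [Field F] [Finite F] in
/-- A function for which any four points of a set pair up into equal values is constant there. -/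
lemma const_of_pattern [DecidableEq ι] {α : Type*} {O : Finset ι} (hO : 5 ≤ O.card) (f : ι → α)
    (hpat : ∀ S ⊆ O, S.card = 4 → ∃ π : ι → ι, ∀ k ∈ S, π k ∈ S ∧ π k ≠ k ∧ π (π k) = k ∧
      f (π k) = f k) :
    ∀ a ∈ O, ∀ b ∈ O, f a = f b := by
  intro a ha b hb
  by_contra hne
  have hab : a ≠ b := fun h => hne (by rw [h])
  obtain ⟨x, y, z, hx, hy, hz, hxy, hxz, hyz⟩ := two_lt_card_iff.mp
    (show 2 < ((O.erase a).erase b).card by
      have := pred_card_le_card_erase (s := O.erase a) (a := b)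
      rw [card_erase_of_mem ha] at this
      omega)
  simp only [mem_erase] at hx hy hz
  have key : ∀ u v, u ∈ O → v ∈ O → u ≠ v → u ≠ a → u ≠ b → v ≠ a → v ≠ b →
      (f a = f u ∧ f b = f v) ∨ (f a = f v ∧ f b = f u) := by
    intro u v hu hv huv hua hub hva hvb
    obtain ⟨π, hπ⟩ := hpat {a, b, u, v} (by
        intro m hm
        simp only [mem_insert, mem_singleton] at hm
        rcases hm with rfl | rfl | rfl | rfl <;> assumption) (by
        rw [card_insert_of_notMem (by simp [hab, hua.symm, hva.symm]),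
          card_insert_of_notMem (by simp [hub.symm, hvb.symm]), card_pair huv])
    obtain ⟨ma, na, ia, fa⟩ := hπ a (by simp)
    obtain ⟨mb, nb, ib, fb⟩ := hπ b (by simp)
    simp only [mem_insert, mem_singleton] at ma mb
    rcases ma with e | e | e | e
    · exact absurd e na
    · exact absurd (by rw [← fa, e]) hne
    all_goals rcases mb with e' | e' | e' | e'
    all_goals grind
  have h1 := key x y hx.2.2 hy.2.2 hxy hx.2.1 hx.1 hy.2.1 hy.1
  have h3 := key x z hx.2.2 hz.2.2 hxz hx.2.1 hx.1 hz.2.1 hz.1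
  have h4 := key y z hy.2.2 hz.2.2 hyz hy.2.1 hy.1 hz.2.1 hz.1
  grind

omit [Finite F] in
lemma Plane.symm (h2 : (2 : F) ≠ 0) {h : GL ι F} {p b : ι → F} (hP : Plane h p b) :
    Plane h b p :=
  ⟨by rw [hP.eq, (commute_rv h2 hP.orth).eq], by rw [dotProduct_comm]; exact hP.orth, hP.hb, hP.hp⟩

variable (h2 : (2 : F) ≠ 0) (hn : 10 ≤ Fintype.card ι) {X : Subgroup (GL ι F)}
  (hX : X ≤ GOs ι F) (hM : MonX X)
include h2 hn hX hM

omit [Finite F] in
lemma sq_eq_of_pm {ε x y : F} (hε : ε = 1 ∨ ε = -1) (h : ε * x - y = 0) : x * x = y * y := by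
  rcases hε with rfl | rfl
  · linear_combination (x + y) * h
  · linear_combination -(x - y) * h

omit [Finite F] in
/-- A plane whose first vector has support at least five and not full, with two zeros of the second
vector on it. -/
lemma fix_of_two_zeros {h : GL ι F} {p b : ι → F} (hP : Plane h p b) (hh : h ∈ X)
    (hT : 5 ≤ (supp p).card) {o : ι} (ho : p o = 0) {i i' : ι} (hii : i ≠ i') (hi : p i ≠ 0)
    (hb : b i = 0) (hb' : b i' = 0) : Fix X := by
  classical
  set d := dg F ({i, i'} : Finset ι) with hd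
  have hdb : ap d b = b := funext fun l => by
    rw [hd, ap_dg]
    split_ifs with hl
    · simp only [mem_insert, mem_singleton] at hl
      rcases hl with rfl | rfl
      exacts [by rw [hb, neg_zero], by rw [hb', neg_zero]]
    · rfl
  set q := ap d p with hq
  have hqq : q ⬝ᵥ q = p ⬝ᵥ p := dot_ap h2 (dg_mem_GOs _) p p
  have hz : d * h * d * h = rv q * rv p := by
    have h1 := (hP.conj h2 (dg_mem_GOs (F := F) ({i, i'} : Finset ι))).eq
    rw [← hd, dg_inv, ← hd, hdb, ← hq] at h1
    rw [h1, hP.eq, (commute_rv h2 hP.orth).eq, mul_assoc, ← mul_assoc (rv b), rv_mul_self, one_mul]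
  refine ⟨d * h * d * h, mul_mem (mul_mem (mul_mem (dg_pair_mem hM hii) hh) (dg_pair_mem hM hii)) hh,
    fun hmon => ?_, o, Or.inl ?_⟩
  · rw [hz] at hmon
    set N := p ⬝ᵥ p with hN
    set K := 2 * (p ⬝ᵥ q) / N with hK
    set σ : ι → F := fun l => if l ∈ ({i, i'} : Finset ι) then -1 else 1 with hσ
    have hqv : ∀ l, q l = σ l * p l := fun l => by
      rw [hq, hd, ap_dg]; simp only [hσ]; split_ifs <;> ring
    have hcol : ∀ l m, m ≠ l → ap (rv q * rv p) e[l] m =
        -(2 * p l * p m / N) * (1 + σ m * (σ l - K)) := fun l m hml => by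
      rw [ap_mul, ap_rv p, ap_rv, hqq, sub_dotProduct, smul_dotProduct, single_dotProduct,
        single_dotProduct, hqv l, ← hN]
      simp only [Pi.sub_apply, Pi.smul_apply, Pi.single_eq_of_ne hml, hqv m, smul_eq_mul, hK,
        one_mul]
      have hN0 : N ≠ 0 := hP.hp
      field_simp
      ring
    obtain ⟨r, m, m', hr, hm, hm', hrm, hrm', hmm⟩ := two_lt_card_iff.mp
      (show 2 < (((supp p).erase i).erase i').card by
        have := pred_card_le_card_erase (s := (supp p).erase i) (a := i')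
        rw [card_erase_of_mem (mem_supp.mpr hi)] at this
        omega)
    simp only [mem_erase, mem_supp] at hr hm hm'
    have hσ1 : ∀ l, l ≠ i → l ≠ i' → σ l = 1 := fun l h1 h3 => by simp [hσ, h1, h3]
    have hσi : σ i = -1 := by simp [hσ]
    have hN0 : N ≠ 0 := hP.hp
    by_cases hK0 : K = 0
    · have hv : ∀ l, l ≠ i → l ≠ i' → p l ≠ 0 → l ≠ r → l ∈ supp (ap (rv q * rv p) e[r]) :=
        fun l h1 h3 h0 h4 => by
          rw [mem_supp, hcol r l h4, hσ1 r hr.2.1 hr.1, hσ1 l h1 h3, hK0]
          simp [h2, hN0, hr.2.2, h0, one_add_one_eq_two]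
      exact hmm (card_le_one.mp (supp_col_mon hmon r) m
        (hv m hm.2.1 hm.1 hm.2.2 (Ne.symm hrm)) m' (hv m' hm'.2.1 hm'.1 hm'.2.2 (Ne.symm hrm')))
    · have hv : ∀ l, l ≠ i → l ≠ i' → p l ≠ 0 → l ∈ supp (ap (rv q * rv p) e[i]) :=
        fun l h1 h3 h0 => by
          rw [mem_supp, hcol i l h1, hσi, hσ1 l h1 h3]
          exact mul_ne_zero (neg_ne_zero.mpr (div_ne_zero (mul_ne_zero (mul_ne_zero h2 hi) h0) hN0))
            fun e => hK0 (by linear_combination -e)
      exact hmm (card_le_one.mp (supp_col_mon hmon i) m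
        (hv m hm.2.1 hm.1 hm.2.2) m' (hv m' hm'.2.1 hm'.1 hm'.2.2))
  · rw [hz, ap_mul, ap_rv_fix (show (e[o] : ι → F) ⬝ᵥ p = 0 by simp [ho]),
      ap_rv_fix (show (e[o] : ι → F) ⬝ᵥ q = 0 by simp [hq, hd, ap_dg, ho])]

/-- Outside an anisotropic vector on two coordinates of a plane, the other vector has constant
squares. -/
lemma constancy {h : GL ι F} {p b : ι → F} (hP : Plane h p b) (hh : h ∈ X) (hnm : ¬ IsMon h)
    (hT : (supp p).card ≤ 2) :
    Fix X ∨ ((∀ l ∉ supp p, b l ≠ 0) ∧
      ∀ a ∉ supp p, ∀ a' ∉ supp p, b a * b a = b a' * b a') := by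
  classical
  set T := supp p with hTdef
  by_cases hzero : ∃ l ∉ T, b l = 0
  · obtain ⟨l, hl, hbl⟩ := hzero
    exact Or.inl ⟨h, hh, hnm, l, Or.inl (hP.ap_fix_single (eq_zero_of_notMem_supp hl) hbl)⟩
  push Not at hzero
  have hp0 : ∀ l ∉ T, p l = 0 := fun l hl => eq_zero_of_notMem_supp hl
  have hTc : 7 ≤ Tᶜ.card := by rw [card_compl]; omega
  -- `Cond` gives orthogonality to `b`
  have horth : ∀ S : Finset ι, S.card = 4 → (∃ l, l ∉ T ∧ l ∉ S) →
      ∀ w, Cond p b S w → w ⬝ᵥ b = 0 := by
    rintro S - ⟨l, hlT, hlS⟩ w hw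
    have := hw l hlS
    rw [hp0 l hlT, mul_zero, zero_add] at this
    exact (div_eq_zero_iff.mp ((mul_eq_zero.mp this).resolve_right (hzero l hlT))).resolve_right hP.hb
  have hfree : ∀ S : Finset ι, S.card = 4 → ∀ j k : ι, ∃ l, l ∉ T ∧ l ∉ S ∧ l ≠ j ∧ l ≠ k := by
    intro S hS j k
    have h1 := le_card_sdiff (S ∪ {j, k}) Tᶜ
    have h3 := card_union_le S {j, k}
    have h4 : ({j, k} : Finset ι).card ≤ 2 := card_le_two
    obtain ⟨l, hl⟩ := card_pos.mp (show 0 < (Tᶜ \ (S ∪ {j, k})).card by omega)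
    simp only [mem_sdiff, mem_compl, mem_union, mem_insert, mem_singleton, not_or] at hl
    exact ⟨l, hl.1, hl.2.1, hl.2.2.1, hl.2.2.2⟩
  -- the multiplier of `b` vanishes
  have hbeta : ∀ S : Finset ι, S.card = 4 → ∀ (j k : ι) (c α β : F),
      (∀ l ∉ S, (c • (e[j] : ι → F) - (e[k] : ι → F) : ι → F) l = α * p l + β * b l) → β = 0 := by
    intro S hS j k c α β hl
    obtain ⟨l, hlT, hlS, hlj, hlk⟩ := hfree S hS j k
    have := hl l hlS
    simp [hlj, hlk, hp0 l hlT] at this
    exact this.resolve_right (hzero l hlT)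
  obtain hT1 | ⟨r, hr, t, ht, hrt⟩ : T.card ≤ 1 ∨ ∃ r ∈ T, ∃ t ∈ T, r ≠ t := by
    by_cases h1 : T.card ≤ 1
    · exact Or.inl h1
    · exact Or.inr (one_lt_card.mp (by omega))
  · left
    obtain ⟨r, hr⟩ : T.Nonempty := by
      by_contra hc
      rw [not_nonempty_iff_eq_empty] at hc
      refine hP.hp (Finset.sum_eq_zero fun l _ => ?_)
      rw [hp0 l (by rw [hc]; simp), mul_zero]
    have hone : ∀ l, l ≠ r → p l = 0 := fun l hl => hp0 l fun hlT =>
      hl (card_le_one.mp hT1 l hlT r hr)
    have hpr : p r ≠ 0 := mem_supp.mp hr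
    have hpe : p = p r • (e[r] : ι → F) := funext fun l => by
      by_cases hl : l = r
      · subst hl; simp
      · simp [hl, hone l hl]
    have hbr : b r = 0 := by
      have := hP.orth
      rw [hpe] at this
      simpa [hpr] using this
    refine ⟨h, hh, hnm, r, Or.inr ?_⟩
    rw [hP.eq, ap_mul, ap_rv_fix (show (e[r] : ι → F) ⬝ᵥ b = 0 by simp [hbr]), hpe, rv_smul _ hpr]
    exact ap_rv_self (by simp)
  have hpr : p r ≠ 0 := mem_supp.mp hr
  have hpt : p t ≠ 0 := mem_supp.mp ht
  by_cases hspec : T = {r, t} ∧ p r * p r = p t * p t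
  · -- the special short vector
    obtain ⟨hT2, hsq⟩ := hspec
    have hbt : p r * b r + p t * b t = 0 := by
      rw [← hP.orth]
      refine (Finset.sum_pair (f := fun l => p l * b l) hrt).symm.trans
        (Finset.sum_subset (subset_univ {r, t}) fun l _ hl => ?_)
      rw [← hT2] at hl
      rw [hp0 l hl, zero_mul]
    obtain ⟨ε, hε, hpε⟩ : ∃ ε : F, (ε = 1 ∨ ε = -1) ∧ p t = ε * p r := by
      rcases mul_self_eq_mul_self_iff.mp hsq.symm with h | h
      exacts [⟨1, Or.inl rfl, by rw [h, one_mul]⟩, ⟨-1, Or.inr rfl, by rw [h, neg_one_mul]⟩]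
    have hbsq : b r * b r = b t * b t := by
      refine mul_left_cancel₀ (mul_ne_zero hpr hpr) ?_
      linear_combination (p r * b r - p t * b t) * hbt - (b t * b t) * hsq
    by_cases hbr : b r = 0
    · left
      have hbt0 : b t = 0 := mul_self_eq_zero.mp (by rw [← hbsq, hbr, mul_zero])
      obtain ⟨i, hi, i', hi', hii⟩ := one_lt_card.mp (show 1 < Tᶜ.card by omega)
      rw [mem_compl] at hi hi'
      exact fix_of_two_zeros h2 hn hX hM (p := b) (b := p) (hP.symm h2) hh
        (le_trans (show 5 ≤ Tᶜ.card by omega) (card_le_card fun l hl =>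
          mem_supp.mpr (hzero l (mem_compl.mp hl)))) (o := r) hbr hii (hzero i hi)
        (hp0 i hi) (hp0 i' hi')
    by_cases hfix : Fix X
    · exact Or.inl hfix
    refine Or.inr ⟨hzero, fun a ha a' ha' => ?_⟩
    by_contra hne
    have haa : a ≠ a' := fun h => hne (by rw [h])
    have har : a ≠ r := fun h => ha (h ▸ hr)
    have hat : a ≠ t := fun h => ha (h ▸ ht)
    have ha'r : a' ≠ r := fun h => ha' (h ▸ hr)
    have ha't : a' ≠ t := fun h => ha' (h ▸ ht)
    set S : Finset ι := {r, t, a, a'} with hSdef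
    have hS : S.card = 4 := by
      rw [hSdef, card_insert_of_notMem (by simp [hrt, har.symm, ha'r.symm]),
        card_insert_of_notMem (by simp [hat.symm, ha't.symm]), card_pair haa]
    have hout : ∀ l, l ∉ S → l ∉ T := fun l hl hlT => hl (by
      rw [hT2] at hlT
      simp only [mem_insert, mem_singleton] at hlT
      rcases hlT with rfl | rfl <;> simp [S])
    obtain hf | ⟨k, hk, hc⟩ | ⟨π, hπ⟩ := central_dichotomy h2 hn hX hM hP hh hS
      (fun j hj k hk c α β _ hl => by
        have hβ := hbeta S hS j k c α β hl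
        have h1 := hl k hk
        have h3 := hl j hj
        rw [hβ, hp0 k (hout k hk)] at h1
        by_cases hjk : j = k
        · subst hjk
          simp at h1
          exact ⟨rfl, by linear_combination h1⟩
        · simp [Ne.symm hjk] at h1)
    · exact hfix hf
    · obtain ⟨l, h1, h3, -⟩ := hfree S hS k k
      have := horth S hS ⟨l, h1, h3⟩ _ hc
      simp at this
      simp only [S, mem_insert, mem_singleton] at hk
      rcases hk with rfl | rfl | rfl | rfl
      exacts [hbr this, hbr (mul_self_eq_zero.mp (by rw [hbsq, this, mul_zero])), hzero _ ha this,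
        hzero _ ha' this]
    · obtain ⟨l, h1, h3, -⟩ := hfree S hS r r
      have hrel : ∀ k ∈ S, b (π k) * b (π k) = b k * b k := fun k hk => by
        obtain ⟨-, -, -, ε', hε', hc⟩ := hπ k hk
        have := horth S hS ⟨l, h1, h3⟩ _ hc
        simp [sub_dotProduct, smul_dotProduct] at this
        exact sq_eq_of_pm h2 hn hX hM hε' this
      obtain ⟨ma, na, ia, -⟩ := hπ a (by simp [S])
      obtain ⟨ma', na', ia', -⟩ := hπ a' (by simp [S])
      have ea := hrel a (by simp [S])
      have ea' := hrel a' (by simp [S])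
      simp only [S, mem_insert, mem_singleton] at ma ma'
      refine hne ?_
      grind
  -- the general short vector
  refine or_iff_not_imp_left.mpr fun hfix => ⟨hzero, fun a ha a' ha' => ?_⟩
  refine const_of_pattern (O := Tᶜ) (by omega) (fun l => b l * b l) (fun S hSO hS => ?_) a
    (mem_compl.mpr ha) a' (mem_compl.mpr ha')
  have hTS : ∀ l ∈ T, l ∉ S := fun l hl hlS => mem_compl.mp (hSO hlS) hl
  obtain hf | ⟨k, hk, hc⟩ | ⟨π, hπ⟩ := central_dichotomy h2 hn hX hM hP hh hS
    (fun j hj k hk c α β hc hl => by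
      have hβ := hbeta S hS j k c α β hl
      subst hβ
      by_cases hα : α = 0
      · subst hα
        have h1 := hl k hk
        by_cases hjk : j = k
        · subst hjk
          simp at h1
          exact ⟨rfl, by linear_combination h1⟩
        · simp [Ne.symm hjk] at h1
      exfalso
      have hsub : ∀ l ∈ T, l = j ∨ l = k := fun l hlT => by
        by_contra hc'
        push Not at hc'
        have := hl l (hTS l hlT)
        simp [hc'.1, hc'.2] at this
        rcases this with h | h
        exacts [hα h, mem_supp.mp hlT h]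
      have h1 := hl k hk
      have h3 := hl j hj
      obtain ⟨rfl, rfl⟩ | ⟨rfl, rfl⟩ : (r = j ∧ t = k) ∨ (r = k ∧ t = j) := by
        rcases hsub r hr with e | e <;> rcases hsub t ht with e' | e'
        exacts [absurd (e.trans e'.symm) hrt, Or.inl ⟨e, e'⟩, Or.inr ⟨e, e'⟩,
          absurd (e.trans e'.symm) hrt]
      all_goals
        refine hspec ⟨(eq_of_subset_of_card_le (fun l hl' => by
          rcases hsub l hl' with e | e <;> simp [e]) ?_), ?_⟩
      · exact card_le_two.trans (one_lt_card.mpr ⟨r, hr, t, ht, hrt⟩)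
      · simp [hrt, Ne.symm hrt] at h1 h3
        refine mul_left_cancel₀ (mul_ne_zero hα hα) ?_
        have hc2 : c * c = 1 := by rcases hc with rfl | rfl <;> ring
        linear_combination -(α * p r + c) * h3 + (α * p t - 1) * h1 + hc2
      · exact card_le_two.trans (one_lt_card.mpr ⟨r, hr, t, ht, hrt⟩)
      · simp [hrt, Ne.symm hrt] at h1 h3
        refine mul_left_cancel₀ (mul_ne_zero hα hα) ?_
        have hc2 : c * c = 1 := by rcases hc with rfl | rfl <;> ring
        linear_combination -(α * p r - 1) * h1 + (α * p t + c) * h3 - hc2)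
  · exact absurd hf hfix
  · exfalso
    obtain ⟨l, h1, h3, -⟩ := hfree S hS k k
    have := horth S hS ⟨l, h1, h3⟩ _ hc
    simp at this
    exact hzero k (mem_compl.mp (hSO hk)) this
  · refine ⟨π, fun k hk => ?_⟩
    obtain ⟨m1, m3, m4, ε', hε', hc⟩ := hπ k hk
    obtain ⟨l, h1, h3, -⟩ := hfree S hS k k
    have := horth S hS ⟨l, h1, h3⟩ _ hc
    simp [sub_dotProduct, smul_dotProduct] at this
    exact ⟨m1, m3, m4, sq_eq_of_pm h2 hn hX hM hε' this⟩

omit hn hM hX [Finite F] in
/-- An anisotropic combination of two columns and a vector orthogonal to it in their plane. -/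
lemma plane_of_combination {g : GL ι F} (hgG : g ∈ GOs ι F) {a c : ι} (hac : a ≠ c) {α β : F}
    (hiso : α * α + β * β ≠ 0) : ∃ b,
    Plane (g * dg F {a, c} * g⁻¹) (α • ap g e[a] + β • ap g e[c]) b := by
  have hP := plane_conj_dg h2 hgG hac
  set u := ap g e[a] with hu
  set v := ap g e[c] with hv
  have huu : u ⬝ᵥ u = 1 := by rw [hu, dot_ap h2 hgG]; simp
  have hvv : v ⬝ᵥ v = 1 := by rw [hv, dot_ap h2 hgG]; simp
  refine ⟨(-β) • u + α • v, ?_⟩
  set p := α • u + β • v with hp
  set b := (-β) • u + α • v with hb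
  have horth : p ⬝ᵥ b = 0 := by
    simp only [hp, hb, add_dotProduct, dotProduct_add, smul_dotProduct, dotProduct_smul,
      smul_eq_mul, huu, hvv, show u ⬝ᵥ v = 0 from hP.orth, dotProduct_comm v u]
    ring
  have hpp : p ⬝ᵥ p = α * α + β * β := by
    simp only [hp, add_dotProduct, dotProduct_add, smul_dotProduct, dotProduct_smul, smul_eq_mul,
      huu, hvv, show u ⬝ᵥ v = 0 from hP.orth, dotProduct_comm v u]
    ring
  have hbb : b ⬝ᵥ b = α * α + β * β := by
    simp only [hb, add_dotProduct, dotProduct_add, smul_dotProduct, dotProduct_smul, smul_eq_mul,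
      huu, hvv, show u ⬝ᵥ v = 0 from hP.orth, dotProduct_comm v u]
    ring
  refine ⟨gl_ext fun w => ?_, horth, by rwa [hpp], by rwa [hbb]⟩
  rw [hP.ap_eq, huu, hvv, ap_mul, ap_rv p, ap_rv, sub_dotProduct, smul_dotProduct,
    dotProduct_comm b p, horth, hpp, hbb]
  simp only [hp, hb, dotProduct_add, dotProduct_smul, smul_eq_mul]
  have hs : α ^ 2 + β ^ 2 ≠ 0 := by rwa [sq, sq]
  match_scalars <;> field_simp [hs] <;> ring

/-- A plane with an anisotropic vector on two coordinates. -/
lemma fix_of_pair {h : GL ι F} {p b : ι → F} (hP : Plane h p b) (hh : h ∈ X) (hnm : ¬ IsMon h)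
    (hT : (supp p).card ≤ 2) : Fix X := by
  classical
  by_contra hfix
  obtain ⟨hzero, hconst⟩ := (constancy h2 hn hX hM hP hh hnm hT).resolve_left hfix
  set T := supp p with hTdef
  have hTc : 7 ≤ Tᶜ.card := by rw [card_compl]; omega
  obtain ⟨a, ha⟩ := card_pos.mp (show 0 < Tᶜ.card by omega)
  rw [mem_compl] at ha
  set C := b a * b a with hC
  have hC0 : C ≠ 0 := mul_ne_zero (hzero a ha) (hzero a ha)
  set N := b ⬝ᵥ b with hN
  have h8 : N = 8 * C → 11 ≤ Fintype.card ι := by
    intro h8
    by_contra hn11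
    have hTc' : Tᶜ.card + T.card = 10 := by
      have := card_le_univ T; rw [card_compl]; omega
    have hNT : N = (∑ l ∈ T, b l * b l) + (Tᶜ.card : F) * C := by
      rw [hN, dotProduct, ← Finset.sum_add_sum_compl T, Finset.sum_congr rfl fun l hl =>
        (show b l * b l = C from hconst l (mem_compl.mp hl) a ha), Finset.sum_const, nsmul_eq_mul]
    have hswap : ∀ r, p r ≠ 0 → b r = 0 → False := fun r hpr hbr => by
      obtain ⟨i, hi, i', hi', hii⟩ := one_lt_card.mp (show 1 < Tᶜ.card by omega)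
      rw [mem_compl] at hi hi'
      exact hfix (fix_of_two_zeros h2 hn hX hM (hP.symm h2) hh
        (le_trans (show 5 ≤ Tᶜ.card by omega) (card_le_card fun l hl =>
          mem_supp.mpr (hzero l (mem_compl.mp hl)))) (o := r) hbr hii (hzero i hi)
        (eq_zero_of_notMem_supp hi) (eq_zero_of_notMem_supp hi'))
    have hsum : ∀ f : ι → F, (∀ l ∉ T, f l = 0) → ∑ l, f l = ∑ l ∈ T, f l := fun f hf =>
      (Finset.sum_subset (subset_univ T) fun l _ hl => hf l hl).symm
    have horth := hP.orth
    rw [dotProduct, hsum _ fun l hl => by rw [eq_zero_of_notMem_supp hl, zero_mul]] at horth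
    obtain h1 | h1 : T.card ≤ 1 ∨ T.card = 2 := by omega
    · have hne : T.Nonempty := by
        by_contra h0
        rw [not_nonempty_iff_eq_empty] at h0
        exact hP.hp (Finset.sum_eq_zero fun l _ => by
          rw [eq_zero_of_notMem_supp (show l ∉ supp p by rw [← hTdef, h0]; simp), mul_zero])
      obtain ⟨r, hr⟩ := card_eq_one.mp (le_antisymm h1 (card_pos.mpr hne))
      have hpr : p r ≠ 0 := mem_supp.mp (by rw [← hTdef, hr]; simp)
      rw [hr, sum_singleton] at horth
      exact hswap r hpr ((mul_eq_zero.mp horth).resolve_left hpr)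
    · obtain ⟨r, t, hrt, hT2⟩ := card_eq_two.mp h1
      have hpr : p r ≠ 0 := mem_supp.mp (by rw [← hTdef, hT2]; simp)
      have hpt : p t ≠ 0 := mem_supp.mp (by rw [← hTdef, hT2]; simp)
      rw [hT2, sum_pair hrt] at horth hNT
      rw [← hTdef] at *
      have hpp : p ⬝ᵥ p = p r * p r + p t * p t := by
        rw [dotProduct, hsum _ fun l hl => by rw [eq_zero_of_notMem_supp hl, zero_mul], hT2,
          sum_pair hrt]
      have h8' : Tᶜ.card = 8 := by rw [hT2, card_pair hrt] at hTc'; rw [hT2]; omega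
      rw [hT2] at h8'
      rw [h8, h8'] at hNT
      push_cast at hNT
      refine hswap r hpr (mul_self_eq_zero.mp ((mul_eq_zero.mp (show (b r * b r) *
        (p r * p r + p t * p t) = 0 by
          linear_combination (p r * b r - p t * b t) * horth - (p t * p t) * hNT)).resolve_right
        (hpp ▸ hP.hp)))
  -- choose the number of flips
  obtain ⟨m, hm, hm11, B, hB, hB0, hB1⟩ : ∃ m : ℕ, (m = 2 ∨ m = 4 ∨ m = 6) ∧
      (m = 6 → 11 ≤ Fintype.card ι) ∧
      ∃ B : F, B * N = N - 2 * (m : F) * C ∧ B ≠ 0 ∧ (m = 4 ∧ B = -1 ∨ 1 - 2 * B ≠ 0) := by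
    by_cases h4 : N = 4 * C
    · exact ⟨4, by simp, by simp, -1, by rw [h4]; push_cast; ring, neg_ne_zero.mpr one_ne_zero,
        Or.inl ⟨rfl, rfl⟩⟩
    by_cases h8' : N = 8 * C
    · refine ⟨6, by simp, fun _ => h8 h8', -(1 / 2), ?_, by simp [h2], Or.inr ?_⟩
      · rw [h8']; field_simp; push_cast; ring
      · field_simp; intro h; exact h2 (by linear_combination h)
    refine ⟨2, by simp, by simp, (N - 4 * C) / N, ?_, div_ne_zero (sub_ne_zero.mpr h4) hP.hb, Or.inr ?_⟩
    · rw [div_mul_cancel₀ _ hP.hb]; push_cast; ring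
    · intro h
      have e : 2 * ((N - 4 * C) / N) = 1 := by linear_combination -h
      rw [← mul_div_assoc, div_eq_one_iff_eq hP.hb] at e
      exact h8' (by linear_combination e)
  obtain ⟨S, hSO, hS⟩ := exists_subset_card_eq (show m ≤ Tᶜ.card by omega)
  have hST : ∀ l ∈ S, l ∉ T := fun l hl => mem_compl.mp (hSO hl)
  have hd : dg F S ∈ X := dg_mem hM (by rw [hS]; rcases hm with rfl | rfl | rfl <;> decide)
  have hdp : ap (dg F S) p = p := funext fun l => by
    rw [ap_dg]; split_ifs with hl
    · rw [eq_zero_of_notMem_supp (hST l hl), neg_zero]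
    · rfl
  set db := ap (dg F S) b with hdb
  have hdbp : db ⬝ᵥ p = 0 := by
    have := dot_ap h2 (dg_mem_GOs (F := F) S) b p
    rw [hdp, dotProduct_comm b p, hP.orth] at this
    exact this
  have hdbb : db ⬝ᵥ b = N - 2 * (m : F) * C := by
    have : db ⬝ᵥ b = ∑ l, (b l * b l - if l ∈ S then 2 * (b l * b l) else 0) := by
      refine Finset.sum_congr rfl fun l _ => ?_
      rw [hdb, ap_dg]
      split_ifs <;> ring
    rw [this, Finset.sum_sub_distrib, Finset.sum_ite, Finset.sum_const_zero, add_zero,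
      Finset.filter_mem_eq_inter, Finset.univ_inter,
      Finset.sum_congr rfl fun l hl => (show (2 : F) * (b l * b l) = 2 * C by
        rw [hconst l (hST l hl) a ha]), Finset.sum_const, hS, nsmul_eq_mul]
    change N - _ = _
    ring
  have hhp : ap h p = -p := by
    rw [hP.eq, ap_mul, ap_rv_fix hP.orth, ap_rv_self hP.hp]
  set k := h * dg F S with hk
  have hP' : Plane (k * h * k⁻¹) p (ap h db) := by
    have := (hP.conj h2 (mul_mem hP.mem_GOs (dg_mem_GOs S) : k ∈ GOs ι F)).neg
    simp only [ap_mul, hdp, hhp, neg_neg, hk] at this ⊢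
    exact this
  have hv : ∀ l, l ∉ T → ap h db l = ((if l ∈ S then -1 else 1) - 2 * B) * b l := by
    intro l hl
    rw [hP.ap_eq, hdbp, hdbb, ← hB]
    have := hP.hb
    simp only [Pi.sub_apply, Pi.smul_apply, smul_eq_mul, hdb, ap_dg,
      eq_zero_of_notMem_supp hl, mul_zero, sub_zero]
    field_simp
    split_ifs <;> ring
  have hh' : k * h * k⁻¹ ∈ X := mul_mem (mul_mem (mul_mem hh hd) hh) (inv_mem (mul_mem hh hd))
  have hnm' : ¬ IsMon (k * h * k⁻¹) := fun hmon => by
    have h1 := hP'.card_le_four_of_isMon h2 hmon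
    have hTne : 0 < T.card := card_pos.mpr (by
      by_contra hc
      rw [not_nonempty_iff_eq_empty] at hc
      refine hP.hp (Finset.sum_eq_zero fun l _ => ?_)
      rw [eq_zero_of_notMem_supp (show l ∉ supp p by rw [← hTdef, hc]; simp), mul_zero])
    rcases hB1 with ⟨rfl, hB'⟩ | hB'
    · have hsub : T ∪ S ⊆ supp p ∪ supp (ap h db) := by
        intro l hl
        rcases mem_union.mp hl with h' | h'
        · exact mem_union_left _ h'
        · refine mem_union_right _ (mem_supp.mpr ?_)
          rw [hv l (hST l h'), if_pos h', hB']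
          exact mul_ne_zero (by ring_nf; exact one_ne_zero) (hzero l (hST l h'))
      have := card_le_card hsub
      rw [card_union_of_disjoint (disjoint_left.mpr fun l h' h'' => hST l h'' h'), hS] at this
      omega
    · have hsub : Sᶜ ⊆ supp p ∪ supp (ap h db) := by
        intro l hl
        rw [mem_compl] at hl
        by_cases h' : l ∈ T
        · exact mem_union_left _ h'
        · refine mem_union_right _ (mem_supp.mpr ?_)
          rw [hv l h', if_neg hl]
          exact mul_ne_zero hB' (hzero l h')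
      have := card_le_card hsub
      rw [card_compl, hS] at this
      omega
  obtain ⟨-, hconst'⟩ := (constancy h2 hn hX hM hP' hh' hnm' hT).resolve_left hfix
  obtain ⟨x, hx⟩ := card_pos.mp (show 0 < S.card by omega)
  obtain ⟨y, hy⟩ := card_pos.mp (show 0 < (Tᶜ \ S).card by
    have := le_card_sdiff S Tᶜ; omega)
  rw [mem_sdiff, mem_compl] at hy
  have := hconst' x (hST x hx) y hy.1
  rw [hv x (hST x hx), hv y hy.1, if_pos hx, if_neg hy.2] at this
  have hxy := hconst x (hST x hx) y hy.1
  refine hB0 ((mul_eq_zero.mp (show (2 * 2 * 2) * B * (b y * b y) = 0 by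
    linear_combination this - (-1 - 2 * B) * (-1 - 2 * B) * hxy)).resolve_right
      (mul_ne_zero (hzero y hy.1) (hzero y hy.1)) |> fun h => (mul_eq_zero.mp h).resolve_left ?_)
  simp [h2]

/-- A plane with a short isotropic vector. -/
lemma fix_of_isotropic {g : GL ι F} (hg : g ∈ X) {a c : ι} (hac : a ≠ c)
    (hnm : ¬ IsMon (g * dg F {a, c} * g⁻¹)) {α β : F}
    (hne : α • ap g e[a] + β • ap g e[c] ≠ 0)
    (hiso : α * α + β * β = 0)
    (hT : (supp (α • ap g e[a] + β • ap g e[c])).card ≤ 6) : Fix X := by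
  classical
  set u := ap g e[a] with hu
  set v := ap g e[c] with hv
  have hgG := hX hg
  have hP := plane_conj_dg h2 hgG hac
  set h := g * dg F {a, c} * g⁻¹ with hdef
  have hh : h ∈ X := mul_mem (mul_mem hg (dg_pair_mem hM hac)) (inv_mem hg)
  have huu : u ⬝ᵥ u = 1 := by rw [hu, dot_ap h2 hgG]; simp
  have hvv : v ⬝ᵥ v = 1 := by rw [hv, dot_ap h2 hgG]; simp
  have hα : α ≠ 0 := fun h0 => hne (by
    rw [h0] at hiso
    simp at hiso
    rw [h0, hiso, zero_smul, zero_smul, add_zero])
  set p := α • u + β • v with hp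
  set q := α • u - β • v with hq
  set T := supp p with hTdef
  have hap : ∀ x, ap h x = x - (α * α)⁻¹ • ((x ⬝ᵥ p) • q + (x ⬝ᵥ q) • p) := by
    intro x
    rw [hP.ap_eq, huu, hvv]
    simp only [hp, hq, dotProduct_add, dotProduct_sub, dotProduct_smul, smul_eq_mul]
    match_scalars <;> field_simp
    all_goals (try simp only [hv])
    all_goals first | ring1 | linear_combination (-2 * (x ⬝ᵥ ap g e[c])) * hiso | linear_combination (-4 * (x ⬝ᵥ ap g e[c])) * hiso | linear_combination (4 * (x ⬝ᵥ ap g e[c])) * hiso | linear_combination (2 * (x ⬝ᵥ ap g e[c])) * hiso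
  clear_value h
  by_cases hq0 : ∃ l, l ∉ T ∧ q l = 0
  · obtain ⟨l, hl, hql⟩ := hq0
    refine ⟨h, hh, hnm, l, Or.inl ?_⟩
    rw [hap, single_dotProduct, single_dotProduct, hql, eq_zero_of_notMem_supp hl]
    simp
  push Not at hq0
  obtain ⟨c₁, hc₁, c₂, hc₂, hc12⟩ := one_lt_card.mp (show 1 < Tᶜ.card by rw [card_compl]; omega)
  rw [mem_compl] at hc₁ hc₂
  have hpsupp : 1 < T.card := by
    by_contra hc
    obtain ⟨r, hr⟩ := Function.ne_iff.mp hne
    have hone : ∀ l, l ≠ r → p l = 0 := fun l hl => eq_zero_of_notMem_supp fun hlT =>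
      hl (card_le_one.mp (Nat.le_of_not_lt hc) l hlT r (mem_supp.mpr hr))
    have hpp : p ⬝ᵥ p = 0 := by
      simp only [hp, add_dotProduct, dotProduct_add, smul_dotProduct, dotProduct_smul, smul_eq_mul,
        huu, hvv, show u ⬝ᵥ v = 0 from hP.orth, dotProduct_comm v u]
      linear_combination hiso
    rw [dotProduct, Finset.sum_eq_single r (fun l _ hl => by rw [hone l hl, zero_mul]) (by simp)] at hpp
    exact hr (mul_self_eq_zero.mp hpp)
  set d := dg F {c₁, c₂} with hd
  have hdp : ap d p = p := funext fun l => by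
    rw [hd, ap_dg]; split_ifs with hl
    · simp only [mem_insert, mem_singleton] at hl
      rcases hl with rfl | rfl <;>
        rw [eq_zero_of_notMem_supp (show _ ∉ supp p by assumption), neg_zero]
    · rfl
  have hhp : ap h p = -p := by
    have hpq : p ⬝ᵥ q = α * α + α * α := by
      simp only [hp, hq, add_dotProduct, dotProduct_sub, smul_dotProduct, dotProduct_smul, smul_eq_mul,
        huu, hvv, show u ⬝ᵥ v = 0 from hP.orth, dotProduct_comm v u]
      linear_combination -hiso
    have hpp : p ⬝ᵥ p = 0 := by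
      simp only [hp, add_dotProduct, dotProduct_add, smul_dotProduct, dotProduct_smul, smul_eq_mul,
        huu, hvv, show u ⬝ᵥ v = 0 from hP.orth, dotProduct_comm v u]
      linear_combination hiso
    rw [hap, hpp, hpq]
    match_scalars <;> field_simp <;> ring
  set z := h * (d * h * d) with hz
  have hzX : z ∈ X := mul_mem hh (mul_mem (mul_mem (dg_pair_mem hM hc12) hh) (dg_pair_mem hM hc12))
  have hzcol : ∀ l, p l = 0 → ap z e[l] = (e[l] : ι → F) +
      ((if l ∈ ({c₁, c₂} : Finset ι) then -(2 * q l) else 0) / (α * α)) • p := by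
    intro l hl
    have h1 : ∀ l, p l = 0 → ap h e[l] = (e[l] : ι → F) - (q l / (α * α)) • p := fun l hl => by
      rw [hap, single_dotProduct, single_dotProduct, hl]
      match_scalars <;> ring
    have hdl : ap d e[l] = (if l ∈ ({c₁, c₂} : Finset ι) then (-1 : F) else 1) • (e[l] : ι → F) := by
      funext m
      rw [hd, ap_dg]
      by_cases hm : m = l
      · subst hm; split_ifs <;> simp
      · simp [hm]
    simp only [hz, ap_mul, hdl, ap_smul, ap_sub, h1 l hl, hdp, hhp]
    split_ifs <;> match_scalars <;> ring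
  obtain ⟨l, hlT, hlc⟩ : ∃ l, l ∉ T ∧ l ∉ ({c₁, c₂} : Finset ι) := by
    have h1 := le_card_sdiff {c₁, c₂} Tᶜ
    obtain ⟨l, hl⟩ := card_pos.mp (show 0 < (Tᶜ \ {c₁, c₂}).card by
      rw [card_compl, card_pair hc12] at h1; omega)
    rw [mem_sdiff, mem_compl] at hl
    exact ⟨l, hl⟩
  refine ⟨z, hzX, ?_, l, Or.inl ?_⟩
  · obtain ⟨r, hr, s, hs, hrs⟩ := one_lt_card.mp hpsupp
    refine not_isMon_of_col (j := c₁) hrs ?_ ?_ <;>
      rw [hzcol c₁ (eq_zero_of_notMem_supp hc₁)]
    · simp [show r ≠ c₁ from fun e => hc₁ (e ▸ hr), h2, hα, hq0 c₁ hc₁, mem_supp.mp hr]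
    · simp [show s ≠ c₁ from fun e => hc₁ (e ▸ hs), h2, hα, hq0 c₁ hc₁, mem_supp.mp hs]
  · rw [hzcol l (eq_zero_of_notMem_supp hlT), if_neg hlc]; simp

/-- A short combination of the two columns. -/
lemma fix_of_combination {g : GL ι F} (hg : g ∈ X) {a c : ι} (hac : a ≠ c)
    (hnm : ¬ IsMon (g * dg F {a, c} * g⁻¹)) {α β : F}
    (hne : α • ap g e[a] + β • ap g e[c] ≠ 0)
    (hT : (supp (α • ap g e[a] + β • ap g e[c])).card ≤ 2) : Fix X := by
  by_cases hiso : α * α + β * β = 0
  · exact fix_of_isotropic h2 hn hX hM hg hac hnm hne hiso (hT.trans (by norm_num))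
  obtain ⟨b, hP⟩ := plane_of_combination h2 (hX hg) hac hiso
  exact fix_of_pair h2 hn hX hM hP
    (mul_mem (mul_mem hg (dg_pair_mem hM hac)) (inv_mem hg)) hnm hT

/-- A plane with a short anisotropic vector. -/
lemma fix_of_short {h : GL ι F} {p b : ι → F} (hP : Plane h p b) (hh : h ∈ X) (hnm : ¬ IsMon h)
    (hT : (supp p).card ≤ 6) : Fix X := by
  classical
  by_cases hT2 : (supp p).card ≤ 2
  · exact fix_of_pair h2 hn hX hM hP hh hnm hT2
  set T := supp p with hTdef
  have hTc : 4 ≤ Tᶜ.card := by rw [card_compl]; omega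
  by_cases hzero : ∃ l ∉ T, b l = 0
  · obtain ⟨l, hl, hbl⟩ := hzero
    exact ⟨h, hh, hnm, l, Or.inl (hP.ap_fix_single (eq_zero_of_notMem_supp hl) hbl)⟩
  push Not at hzero
  have hsub : Tᶜ ⊆ supp b := fun l hl => mem_supp.mpr (hzero l (mem_compl.mp hl))
  by_cases hbig : (supp b).card ≤ 5
  · -- the second vector vanishes twice on the first one
    have hle : (T \ supp b).card + (supp b).card ≥ Fintype.card ι := by
      rw [← card_univ]
      refine le_trans (card_le_card fun l _ => ?_) (card_union_le _ _)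
      by_cases hl : l ∈ supp b
      · exact mem_union_right _ hl
      · exact mem_union_left _ (mem_sdiff.mpr ⟨by_contra fun h' => hl (hsub (mem_compl.mpr h')), hl⟩)
    obtain ⟨i, hi, i', hi', hii⟩ := one_lt_card.mp (show 1 < (T \ supp b).card by omega)
    rw [mem_sdiff] at hi hi'
    obtain ⟨o, ho⟩ := card_pos.mp (show 0 < Tᶜ.card by omega)
    exact fix_of_two_zeros h2 hn hX hM hP hh
      (le_trans (by omega) (card_le_card (sdiff_subset : T \ supp b ⊆ T)))
      (eq_zero_of_notMem_supp (mem_compl.mp ho)) hii (mem_supp.mp hi.1)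
      (eq_zero_of_notMem_supp hi.2) (eq_zero_of_notMem_supp hi'.2)
  obtain ⟨a, ha, c, hc, hac⟩ := one_lt_card.mp (show 1 < Tᶜ.card by omega)
  rw [mem_compl] at ha hc
  have hpa : p a = 0 := eq_zero_of_notMem_supp ha
  have hpc : p c = 0 := eq_zero_of_notMem_supp hc
  have hcol : ∀ l, p l = 0 → ap h e[l] = (e[l] : ι → F) - (2 * b l / (b ⬝ᵥ b)) • b := fun l hl => by
    rw [hP.ap_eq, single_dotProduct, single_dotProduct, hl]; simp
  have hP2 := plane_conj_dg h2 hP.mem_GOs hac
  have hnm2 : ¬ IsMon (h * dg F {a, c} * h⁻¹) := fun hmon => by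
    have h1 := hP2.card_le_four_of_isMon h2 hmon
    have hsub2 : supp b ⊆ supp (ap h e[a]) ∪ supp (ap h e[c]) := fun l hl => by
      rw [mem_union, mem_supp, mem_supp, hcol a hpa, hcol c hpc]
      rw [mem_supp] at hl
      by_cases hla : l = a
      · subst hla
        exact Or.inr (by simp [hac, h2, hl, hzero c hc, hP.hb])
      · exact Or.inl (by simp [hla, h2, hl, hzero a ha, hP.hb])
    have := card_le_card hsub2
    omega
  have hcomb : b c • ap h e[a] + (-b a) • ap h e[c] = b c • (e[a] : ι → F) - b a • e[c] := by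
    rw [hcol a hpa, hcol c hpc]
    match_scalars <;> ring
  refine fix_of_combination h2 hn hX hM hh hac hnm2 (α := b c) (β := -b a) ?_ ?_ <;> rw [hcomb]
  · exact fun h0 => hzero c hc (by simpa [hac] using congrFun h0 a)
  · refine (card_le_card fun l hl => ?_).trans (card_le_two (a := a) (b := c))
    rw [mem_supp] at hl
    by_contra hne
    simp only [mem_insert, mem_singleton, not_or] at hne
    simp [hne.1, hne.2] at hl

/-- Descent: some non-monomial element fixes a coordinate line. -/
theorem exists_fix {g : GL ι F} (hg : g ∈ X) (hgn : ¬ IsMon g) : Fix X := by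
  classical
  have hgG := hX hg
  obtain ⟨a₀, x, y, hxy, hx, hy⟩ := exists_two_nonzero hgn
  rcases exists_conj h2 hM hgG (A := univ) (by rw [card_univ]; omega) hg (by omega)
    (fun a ha => absurd (mem_univ a) ha) (fun a _ i hi => absurd (mem_univ i) hi)
    ⟨a₀, mem_univ _, one_lt_card.mpr ⟨x, mem_supp.mpr hx, y, mem_supp.mpr hy, hxy⟩⟩ with
    ⟨a, -, c, -, hac, hnm⟩ | hf
  swap; · exact hf
  have hP := plane_conj_dg h2 hgG hac
  set u := ap g e[a] with hu
  set v := ap g e[c] with hv
  set h := g * dg F {a, c} * g⁻¹ with hdef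
  have hh : h ∈ X := mul_mem (mul_mem hg (dg_pair_mem hM hac)) (inv_mem hg)
  have huu : u ⬝ᵥ u = 1 := by rw [hu, dot_ap h2 hgG]; simp
  have hvv : v ⬝ᵥ v = 1 := by rw [hv, dot_ap h2 hgG]; simp
  by_cases hgen : ∀ α β : F, α • u + β • v ≠ 0 → 7 ≤ (supp (α • u + β • v)).card
  swap
  · push Not at hgen
    obtain ⟨α, β, hne, hlt⟩ := hgen
    by_cases hiso : α * α + β * β = 0
    · exact fix_of_isotropic h2 hn hX hM hg hac hnm hne hiso (Nat.le_of_lt_succ hlt)
    obtain ⟨b, hP'⟩ := plane_of_combination h2 hgG hac hiso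
    exact fix_of_short h2 hn hX hM hP' hh hnm (Nat.le_of_lt_succ hlt)
  -- the generic plane
  by_contra hfix
  have hne : ∀ α β : F, (α ≠ 0 ∨ β ≠ 0) → α • u + β • v ≠ 0 := fun α β h0 h1 => by
    have e1 := congrArg (· ⬝ᵥ u) h1
    have e2 := congrArg (· ⬝ᵥ v) h1
    simp only [add_dotProduct, smul_dotProduct, smul_eq_mul, huu, hvv,
      show u ⬝ᵥ v = 0 from hP.orth, dotProduct_comm v u, zero_dotProduct] at e1 e2
    rcases h0 with h0 | h0
    exacts [h0 (by linear_combination e1), h0 (by linear_combination e2)]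
  have hbig : ∀ (S : Finset ι) (α β : F), S.card ≤ 6 →
      (∀ l ∉ S, α * u l + β * v l = 0) → α = 0 ∧ β = 0 := by
    intro S α β hS hl
    by_contra h0
    have := hgen α β (hne α β (not_and_or.mp h0))
    have hsub : supp (α • u + β • v) ⊆ S := fun l hl' => by
      by_contra h1
      exact mem_supp.mp hl' (by simpa using hl l h1)
    have := card_le_card hsub
    omega
  have hcond : ∀ (S : Finset ι), S.card = 4 → ∀ w, Cond u v S w → w ⬝ᵥ u = 0 ∧ w ⬝ᵥ v = 0 := by
    intro S hS w hw
    have := hbig S _ _ (by omega) hw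
    rw [huu, hvv, div_one, div_one] at this
    exact this
  have hrows : ∀ k, u k ≠ 0 ∨ v k ≠ 0 := fun k => by
    by_contra hc
    push Not at hc
    exact hfix ⟨h, hh, hnm, k, Or.inl (hP.ap_fix_single hc.1 hc.2)⟩
  have hpat := const_of_pattern (O := (univ : Finset ι)) (by rw [card_univ]; omega)
    (fun l => (u l * u l, u l * v l, v l * v l)) (fun S _ hS => by
      obtain hf | ⟨k, hk, hc⟩ | ⟨π, hπ⟩ := central_dichotomy h2 hn hX hM hP hh hS
        (fun j hj k hk c α β _ hl => by
          obtain ⟨rfl, rfl⟩ := hbig (S ∪ {j, k}) α β (by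
              have := card_union_le S ({j, k} : Finset ι)
              have h4 : ({j, k} : Finset ι).card ≤ 2 := card_le_two
              omega) (fun l hl' => by
            simp only [mem_union, mem_insert, mem_singleton, not_or] at hl'
            rw [← hl l hl'.1]; simp [hl'.2.1, hl'.2.2])
          have h1 := hl k hk
          by_cases hjk : j = k
          · subst hjk
            simp at h1
            exact ⟨rfl, by linear_combination h1⟩
          · simp [Ne.symm hjk] at h1)
      · exact absurd hf hfix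
      · exfalso
        have := hcond S hS _ hc
        simp at this
        exact (hrows k).elim (fun h => h this.1) (fun h => h this.2)
      · refine ⟨π, fun k hk => ?_⟩
        obtain ⟨m1, m3, m4, ε, hε, hc⟩ := hπ k hk
        have := hcond S hS _ hc
        simp [sub_dotProduct, smul_dotProduct] at this
        refine ⟨m1, m3, m4, ?_⟩
        obtain ⟨e1, e2⟩ := this
        rw [← sub_eq_zero.mp e1, ← sub_eq_zero.mp e2]
        rcases hε with rfl | rfl <;> simp <;> ring_nf <;> simp)
  obtain ⟨k, hk⟩ := Function.ne_iff.mp (show u ≠ 0 from fun h0 => by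
    rw [h0, zero_dotProduct] at huu; exact zero_ne_one huu)
  have hprop : v = (v k / u k) • u := funext fun l => by
    have h1 := hpat l (mem_univ _) k (mem_univ _)
    simp only [Prod.mk.injEq] at h1
    obtain ⟨e1, e2, e3⟩ := h1
    have hk' : u k ≠ 0 := hk
    have hul : u l ≠ 0 := fun h0 => hk' (by rw [h0, zero_mul] at e1; exact mul_self_eq_zero.mp e1.symm)
    simp only [Pi.smul_apply, smul_eq_mul]
    field_simp
    refine mul_left_cancel₀ hul ?_
    linear_combination u k * e2 - v k * e1
  have h0 := hne (-(v k / u k)) 1 (Or.inr one_ne_zero)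
  refine h0 ?_
  rw [neg_smul, ← hprop]; simp

end CfsgLib.OMon
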