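import Cfsg.Agent.Lib.Geometric.Orth.DecompReflect
import Cfsg.Agent.Lib.Geometric.Orth.Full
import Cfsg.Agent.Lib.Geometric.Monomial

/-!
The form `∑ x_i ^ 2`, its reflections, and the signed even permutations.
-/

set_option autoImplicit false

namespace CfsgLib.OMon

open CfsgLib.Geometric Finset Matrix

variable {ι : Type} [Fintype ι] [DecidableEq ι] {F : Type*} [Field F]

/-- The sum of squares. -/
def qs (ι : Type) [Fintype ι] (F : Type*) [Field F] : QuadraticForm F (ι → F) :=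
  QuadraticMap.weightedSumSquares F (fun _ : ι => (1 : F))

omit [DecidableEq ι] in
lemma qs_apply (x : ι → F) : qs ι F x = x ⬝ᵥ x := by
  simp [qs, QuadraticMap.weightedSumSquares_apply, dotProduct]

omit [DecidableEq ι] in
lemma polar_qs (x y : ι → F) : QuadraticMap.polar (qs ι F) x y = 2 * (x ⬝ᵥ y) := by
  simp only [QuadraticMap.polar, qs_apply, add_dotProduct, dotProduct_add, dotProduct_comm y x]
  ring

omit [DecidableEq ι] in
lemma nondeg_qs (h2 : (2 : F) ≠ 0) : CfsgLib.ClassicalForms.Nondeg (qs ι F) := by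
  classical
  refine fun x hx => funext fun i => ?_
  have := hx (Pi.single i 1)
  simpa [polar_qs, h2] using this

/-- The isometries of the sum of squares. -/
def GOs (ι : Type) [Fintype ι] [DecidableEq ι] (F : Type*) [Field F] : Subgroup (GL ι F) :=
  Cfsg.isometryGroup F (⇑(qs ι F))

lemma dot_ap {g : GL ι F} (h2 : (2 : F) ≠ 0) (hg : g ∈ GOs ι F) (x y : ι → F) :
    ap g x ⬝ᵥ ap g y = x ⬝ᵥ y := by
  have := Orth.polar_ap hg x y
  rw [polar_qs, polar_qs] at this
  exact mul_left_cancel₀ h2 this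

lemma dot_self_ap {g : GL ι F} (hg : g ∈ GOs ι F) (x : ι → F) :
    ap g x ⬝ᵥ ap g x = x ⬝ᵥ x := by
  rw [← qs_apply, ← qs_apply, Orth.mem_isometryGroup_iff.mp hg]

lemma mem_GOs {g : GL ι F} (h : ∀ x, ap g x ⬝ᵥ ap g x = x ⬝ᵥ x) : g ∈ GOs ι F :=
  Orth.mem_isometryGroup_iff.mpr fun x => by rw [qs_apply, qs_apply, h]

/-- The reflection along `v`. -/
noncomputable def rv (v : ι → F) : GL ι F := Orth.rf (qs ι F) v

lemma ap_rv (v x : ι → F) : ap (rv v) x = x - (2 * (x ⬝ᵥ v) / (v ⬝ᵥ v)) • v := by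
  rw [rv, Orth.ap_rf, qs_apply, polar_qs, div_eq_inv_mul]

lemma rv_mem (v : ι → F) : rv v ∈ GOs ι F := Orth.rf_mem_isom v

lemma ap_rv_fix {v x : ι → F} (h : x ⬝ᵥ v = 0) : ap (rv v) x = x := by simp [ap_rv, h]

lemma ap_rv_self {v : ι → F} (h : v ⬝ᵥ v ≠ 0) : ap (rv v) v = -v := by
  rw [ap_rv, mul_div_assoc, div_self h, mul_one]
  module

lemma rv_smul (v : ι → F) {c : F} (hc : c ≠ 0) : rv (c • v) = rv v := by
  refine gl_ext fun x => ?_
  simp only [ap_rv, dotProduct_smul, smul_dotProduct, smul_eq_mul, smul_smul]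
  congr 2
  by_cases h : v ⬝ᵥ v = 0
  · simp [h]
  · field_simp

lemma rv_neg (v : ι → F) : rv (-v) = rv v := by
  rw [← neg_one_smul F v, rv_smul _ (neg_ne_zero.mpr one_ne_zero)]

lemma conj_rv (h2 : (2 : F) ≠ 0) {g : GL ι F} (hg : g ∈ GOs ι F) (v : ι → F) :
    g * rv v * g⁻¹ = rv (ap g v) := by
  refine gl_ext fun x => ?_
  obtain ⟨y, rfl⟩ : ∃ y, x = ap g y := ⟨ap g⁻¹ x, (ap_ap_inv g x).symm⟩
  rw [ap_mul, ap_mul, ap_inv_ap, ap_rv, ap_rv, dot_ap h2 hg, dot_ap h2 hg, ap_sub, ap_smul]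

lemma rv_mul_self (v : ι → F) : rv v * rv v = 1 := by
  refine gl_ext fun x => ?_
  by_cases h : v ⬝ᵥ v = 0
  · simp [ap_mul, ap_rv, h]
  rw [ap_mul, ap_rv v x, ap_sub, ap_smul, ap_rv_self h, ap_rv, ap_one]
  module

lemma rv_inv (v : ι → F) : (rv v)⁻¹ = rv v := inv_eq_of_mul_eq_one_right (rv_mul_self v)

lemma commute_rv (h2 : (2 : F) ≠ 0) {v w : ι → F} (h : v ⬝ᵥ w = 0) :
    Commute (rv v) (rv w) := by
  have := conj_rv h2 (rv_mem w) v
  rw [ap_rv_fix h, mul_inv_eq_iff_eq_mul] at this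
  exact this.symm

/-- The diagonal sign change on `A`. -/
def dg (F : Type*) [Field F] (A : Finset ι) : GL ι F :=
  mon 1 fun i => if i ∈ A then -1 else 1

/-- A permutation matrix. -/
def pm (F : Type*) [Field F] (π : Equiv.Perm ι) : GL ι F := mon π 1

lemma ap_dg (A : Finset ι) (x : ι → F) (i : ι) :
    ap (dg F A) x i = if i ∈ A then -x i else x i := by
  rw [dg, ap_mon]
  simp only [show (Equiv.symm (1 : Equiv.Perm ι)) = 1 from rfl, Equiv.Perm.coe_one, id_eq]
  split_ifs <;> simp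

lemma ap_pm (π : Equiv.Perm ι) (x : ι → F) (i : ι) : ap (pm F π) x i = x (π.symm i) := by
  rw [pm, ap_mon]; simp

lemma ap_pm_single (π : Equiv.Perm ι) (j : ι) :
    ap (pm F π) (Pi.single j 1) = Pi.single (π j) 1 := by
  rw [pm, ap_mon_single]; simp

lemma dg_mul_self (A : Finset ι) : dg F A * dg F A = 1 := by
  refine gl_ext fun x => funext fun i => ?_
  rw [ap_mul, ap_dg, ap_dg, ap_one]
  split_ifs <;> simp

lemma dg_inv (A : Finset ι) : (dg F A)⁻¹ = dg F A :=
  inv_eq_of_mul_eq_one_right (dg_mul_self A)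

lemma dg_mem_GOs (A : Finset ι) : dg F A ∈ GOs ι F := by
  refine mem_GOs fun x => Finset.sum_congr rfl fun i _ => ?_
  rw [ap_dg]
  split_ifs <;> ring

lemma pm_mem_GOs (π : Equiv.Perm ι) : pm F π ∈ GOs ι F := by
  refine mem_GOs fun x => ?_
  simp only [dotProduct, ap_pm]
  exact Equiv.sum_comp π.symm fun i => x i * x i

lemma rv_single (h2 : (2 : F) ≠ 0) (a : ι) : rv (Pi.single a (1 : F)) = dg F {a} := by
  refine gl_ext fun x => funext fun i => ?_
  rw [ap_rv, ap_dg]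
  by_cases h : i = a
  · subst h; simp; ring
  · simp [h]

lemma dg_pair (h2 : (2 : F) ≠ 0) {a b : ι} (hab : a ≠ b) :
    dg F {a, b} = rv (Pi.single a (1 : F)) * rv (Pi.single b 1) := by
  rw [rv_single h2, rv_single h2]
  refine gl_ext fun x => funext fun i => ?_
  rw [ap_mul, ap_dg, ap_dg, ap_dg]
  by_cases h : i = a <;> by_cases h' : i = b <;> simp_all

/-- The signed even permutations with an even number of signs. -/
def MonX (X : Subgroup (GL ι F)) : Prop :=
  ∀ (π : Equiv.Perm ι) (d : ι → Fˣ), Equiv.Perm.sign π = 1 → (∀ i, d i = 1 ∨ d i = -1) →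
    ∏ i, d i = 1 → mon π d ∈ X

lemma dg_mem {X : Subgroup (GL ι F)} (hM : MonX X) {A : Finset ι} (hA : Even A.card) :
    dg F A ∈ X := by
  refine hM 1 _ (map_one _) (fun i => by split_ifs <;> simp) ?_
  rw [Finset.prod_ite, Finset.prod_const, Finset.prod_const_one, mul_one,
    Finset.filter_mem_eq_inter, Finset.univ_inter, hA.neg_one_pow]

lemma dg_pair_mem {X : Subgroup (GL ι F)} (hM : MonX X) {a b : ι} (hab : a ≠ b) :
    dg F {a, b} ∈ X := dg_mem hM (by rw [card_pair hab]; exact even_two)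

lemma pm_mem {X : Subgroup (GL ι F)} (hM : MonX X) {π : Equiv.Perm ι}
    (hπ : Equiv.Perm.sign π = 1) : pm F π ∈ X :=
  hM π 1 hπ (fun _ => Or.inl rfl) (by simp)

/-- The support of a vector. -/
noncomputable def supp (x : ι → F) : Finset ι := by classical exact univ.filter fun i => x i ≠ 0

omit [DecidableEq ι] in
@[simp] lemma mem_supp {x : ι → F} {i : ι} : i ∈ supp x ↔ x i ≠ 0 := by simp [supp]

omit [DecidableEq ι] in
lemma eq_zero_of_notMem_supp {x : ι → F} {i : ι} (h : i ∉ supp x) : x i = 0 := by simpa using h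

lemma supp_col_mon {g : GL ι F} (hg : IsMon g) (j : ι) :
    (supp (ap g (Pi.single j 1))).card ≤ 1 := by
  obtain ⟨π, c, rfl⟩ := hg
  refine card_le_one.mpr fun a ha b hb => ?_
  simp [ap_mon_single, Pi.single_apply] at ha hb
  rw [ha, hb]

lemma not_isMon_of_col {g : GL ι F} {j a b : ι} (hab : a ≠ b)
    (ha : ap g (Pi.single j 1) a ≠ 0) (hb : ap g (Pi.single j 1) b ≠ 0) : ¬ IsMon g := fun h =>
  hab (card_le_one.mp (supp_col_mon h j) a (mem_supp.mpr ha) b (mem_supp.mpr hb))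

lemma isMon_dg (A : Finset ι) : IsMon (dg F A) := ⟨_, _, rfl⟩

lemma isMon_pm (π : Equiv.Perm ι) : IsMon (pm F π) := ⟨_, _, rfl⟩

lemma ap_eq_of_cols {g : GL ι F} {x : ι → F}
    (h : ∀ i, x i ≠ 0 → ap g (Pi.single i 1) = Pi.single i 1) : ap g x = x := by
  have hx : x = ∑ i, x i • (Pi.single i 1 : ι → F) := by
    funext j; simp [Finset.sum_apply, Pi.single_apply]
  conv_lhs => rw [hx]
  rw [← apEquiv_apply, map_sum]
  conv_rhs => rw [hx]
  refine Finset.sum_congr rfl fun i _ => ?_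
  rw [apEquiv_apply, ap_smul]
  by_cases h0 : x i = 0
  · simp [h0]
  · rw [h i h0]

/-- A non-monomial element of `X` fixing a coordinate line. -/
def Fix (X : Subgroup (GL ι F)) : Prop :=
  ∃ z ∈ X, ¬ IsMon z ∧ ∃ o : ι, ap z (Pi.single o 1) = Pi.single o 1 ∨
    ap z (Pi.single o 1) = -Pi.single o 1

end CfsgLib.OMon
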