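import Cfsg.Agent.Lib.Geometric.OrthMonomial.Planes

/-!
The central involution of a plane element and of a sign change on four coordinates: either it leads
to a non-monomial element fixing a coordinate line, or it gives two relations.
-/

set_option autoImplicit false

namespace CfsgLib.OMon

open CfsgLib.Geometric Finset Matrix

variable {ι : Type} [Fintype ι] [DecidableEq ι] {F : Type*} [Field F] [Finite F]

local notation "e[" j "]" => (Pi.single j (1 : _) : ι → _)

/-- The change of `w` under the plane element of `p`, `b` is supported on `S`. -/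
def Cond (p b : ι → F) (S : Finset ι) (w : ι → F) : Prop :=
  ∀ l ∉ S, ((w ⬝ᵥ p) / (p ⬝ᵥ p)) * p l + ((w ⬝ᵥ b) / (b ⬝ᵥ b)) * b l = 0

variable (h2 : (2 : F) ≠ 0) (hn : 10 ≤ Fintype.card ι) {X : Subgroup (GL ι F)}
  (hX : X ≤ GOs ι F) (hM : MonX X)
include h2 hn hX hM

omit hn hX hM [Finite F] in
lemma det_dg_of_even {A : Finset ι} (hA : Even A.card) : (dg F A : Matrix ι ι F).det = 1 := by
  rw [dg, det_mon, map_one]
  have : ∏ m, (((if m ∈ A then -1 else 1 : Fˣ) : F)) = (-1) ^ A.card := by
    rw [Finset.prod_congr rfl (g := fun m => if m ∈ A then (-1 : F) else 1) fun m _ => by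
      split_ifs <;> simp, Finset.prod_ite, Finset.prod_const, Finset.prod_const_one, mul_one,
      Finset.filter_mem_eq_inter, Finset.univ_inter]
  rw [this, hA.neg_one_pow]
  simp

/-- The dichotomy for the central involution. -/
lemma central_dichotomy {h : GL ι F} {p b : ι → F} (hP : Plane h p b) (hh : h ∈ X)
    {S : Finset ι} (hS : S.card = 4)
    (hsmall : ∀ j, j ∉ S → ∀ k, k ∉ S → ∀ c α β : F, (c = 1 ∨ c = -1) →
      (∀ l ∉ S, (c • (e[j] : ι → F) - (e[k] : ι → F) : ι → F) l = α * p l + β * b l) → j = k ∧ c = 1) :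
    Fix X ∨ (∃ k ∈ S, Cond p b S e[k]) ∨
      ∃ π : Equiv.Perm ι, ∀ k ∈ S, π k ∈ S ∧ π k ≠ k ∧ π (π k) = k ∧
        ∃ ε : F, (ε = 1 ∨ ε = -1) ∧ Cond p b S (ε • e[π k] - e[k]) := by
  classical
  have hd : dg F S ∈ X := dg_mem hM (by rw [hS]; decide)
  have hnc : ∀ g ∈ Subgroup.closure ({h, dg F S} : Set (GL ι F)), g * h * g⁻¹ ≠ dg F S := by
    intro g _ he
    let U : Submodule F (ι → F) := Submodule.span F {ap g p, ap g b}
    have hU : Module.finrank F U ≤ 2 := by
      classical
      have := finrank_span_finset_le_card (R := F) ({ap g p, ap g b} : Finset (ι → F))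
      rw [Finset.coe_insert, Finset.coe_singleton] at this
      exact this.trans Finset.card_le_two
    have hmem : ∀ k ∈ S, (e[k] : ι → F) ∈ U := by
      intro k hk
      have h1 : ap (dg F S) e[k] = -e[k] := funext fun l => by
        rw [ap_dg]
        by_cases hl : l = k
        · subst hl; simp [hk]
        · simp [hl]
      rw [← he, ap_mul, ap_mul, hP.ap_eq, ap_sub, ap_sub, ap_smul, ap_smul, ap_ap_inv] at h1
      have h3 : (2 : F) • (e[k] : ι → F) ∈ U := by
        rw [show (2 : F) • (e[k] : ι → F) =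
          (2 * (ap g⁻¹ e[k] ⬝ᵥ p) / (p ⬝ᵥ p)) • ap g p +
            (2 * (ap g⁻¹ e[k] ⬝ᵥ b) / (b ⬝ᵥ b)) • ap g b by
          linear_combination (norm := module) h1]
        exact U.add_mem (U.smul_mem _ (Submodule.subset_span (by simp)))
          (U.smul_mem _ (Submodule.subset_span (by simp)))
      simpa [smul_smul, h2] using U.smul_mem (2 : F)⁻¹ h3
    have h3 : Submodule.span F (Set.range fun k : S => (e[(k : ι)] : ι → F)) ≤ U :=
      Submodule.span_le.mpr (by rintro _ ⟨k, rfl⟩; exact hmem k k.2)
    have h4 := Submodule.finrank_mono h3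
    have h5 := finrank_span_eq_card (R := F) (b := fun k : S => (e[(k : ι)] : ι → F))
      ((Pi.linearIndependent_single_one ι F).comp _ Subtype.val_injective)
    rw [h5, Fintype.card_coe, hS] at h4
    omega
  obtain ⟨z, hzc, hz1, hz2, hzh, hzd, -⟩ :=
    exists_central (hP.mul_self h2) (dg_mul_self S) hnc
  obtain ⟨hzX, hzdet, hzmove⟩ : z ∈ X ∧ (z : Matrix ι ι F).det = 1 ∧
      ∀ x, ∃ α β : F, ∀ l ∉ S, (ap z x - x) l = α * p l + β * b l := by
    clear hz1 hz2 hzh hzd
    induction hzc using Subgroup.closure_induction with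
    | mem y hy =>
      rcases hy with rfl | rfl
      · refine ⟨hh, ?_, fun x => ⟨-(2 * (x ⬝ᵥ p) / (p ⬝ᵥ p)), -(2 * (x ⬝ᵥ b) / (b ⬝ᵥ b)),
          fun l _ => ?_⟩⟩
        · rw [hP.eq, Units.val_mul, det_mul, det_rv hP.hp, det_rv hP.hb]; ring
        · rw [hP.ap_eq]; simp; ring
      · refine ⟨hd, det_dg_of_even h2 (by rw [hS]; decide), fun x => ⟨0, 0, fun l hl => ?_⟩⟩
        simp [ap_dg, hl]
    | one => exact ⟨one_mem _, by simp, fun x => ⟨0, 0, fun l _ => by simp⟩⟩
    | mul y y' _ _ hy hy' =>
      refine ⟨mul_mem hy.1 hy'.1, by rw [Units.val_mul, det_mul, hy.2.1, hy'.2.1, one_mul],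
        fun x => ?_⟩
      obtain ⟨α, β, h1⟩ := hy.2.2 (ap y' x)
      obtain ⟨α', β', h3⟩ := hy'.2.2 x
      refine ⟨α + α', β + β', fun l hl => ?_⟩
      have e1 := h1 l hl
      have e3 := h3 l hl
      simp only [ap_mul, Pi.sub_apply] at e1 e3 ⊢
      linear_combination e1 + e3
    | inv y _ hy =>
      refine ⟨inv_mem hy.1, ?_, fun x => ?_⟩
      · rw [Matrix.coe_units_inv, Matrix.det_nonsing_inv, hy.2.1, Ring.inverse_one]
      · obtain ⟨α, β, h1⟩ := hy.2.2 (ap y⁻¹ x)
        refine ⟨-α, -β, fun l hl => ?_⟩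
        have e1 := h1 l hl
        simp only [ap_ap_inv, Pi.sub_apply] at e1 ⊢
        linear_combination -e1
  have hzG := hX hzX
  -- `z` preserves the coordinates in `S` and the others
  have hdS : ∀ a ∈ S, ap (dg F S) e[a] = -e[a] := fun a ha => funext fun l => by
    rw [ap_dg]
    by_cases hl : l = a
    · subst hl; simp [ha]
    · simp [hl]
  have hdN : ∀ a ∉ S, ap (dg F S) e[a] = e[a] := fun a ha => funext fun l => by
    rw [ap_dg]
    by_cases hl : l = a
    · subst hl; simp [ha]
    · simp [hl]
  have hin : ∀ a ∈ S, ∀ i ∉ S, ap z e[a] i = 0 := fun a ha i hi => by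
    have := congrFun (congrArg (fun g => ap g e[a]) hzd.eq) i
    simp only [ap_mul, hdS a ha, ap_dg, hi, if_false] at this
    rw [← neg_one_smul F (e[a] : ι → F), ap_smul] at this
    simp at this
    exact (mul_eq_zero.mp (show 2 * ap z e[a] i = 0 by linear_combination -this)).resolve_left h2
  have hout : ∀ a ∉ S, ∀ i ∈ S, ap z e[a] i = 0 := fun a ha i hi => by
    have := congrFun (congrArg (fun g => ap g e[a]) hzd.eq) i
    simp only [ap_mul, hdN a ha, ap_dg, hi, if_true] at this
    exact (mul_eq_zero.mp (show 2 * ap z e[a] i = 0 by linear_combination this)).resolve_left h2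
  obtain ⟨f₀, hf₀⟩ : S.Nonempty := card_pos.mp (by omega)
  by_cases hzm : IsMon z
  swap
  · left
    by_cases hbig : ∃ a ∈ Sᶜ, 2 ≤ (supp (ap z e[a])).card
    · have hA : 5 ≤ Sᶜ.card := by rw [card_compl]; omega
      rcases exists_conj h2 hM hzG hA hzX (by omega)
        (fun a ha i hi => hin a (by simpa using ha) i (by simpa using hi))
        (fun a ha i hi => hout a (by simpa using ha) i (by simpa using hi)) hbig with
        ⟨a, ha, c, hc, hac, hnm⟩ | hfix
      · refine ⟨_, mul_mem (mul_mem hzX (dg_pair_mem hM hac)) (inv_mem hzX), hnm, f₀, Or.inl ?_⟩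
        rw [mem_compl] at ha hc
        rw [ap_mul, ap_mul]
        have : ap (dg F {a, c}) (ap z⁻¹ e[f₀]) = ap z⁻¹ e[f₀] := funext fun l => by
          rw [ap_dg]
          split_ifs with hl
          · have : ap z⁻¹ e[f₀] l = 0 := by
              rw [ap_inv_entry h2 hzG]
              simp only [mem_insert, mem_singleton] at hl
              rcases hl with rfl | rfl
              exacts [hout _ ha _ hf₀, hout _ hc _ hf₀]
            rw [this, neg_zero]
          · rfl
        rw [this, ap_ap_inv]
      · exact hfix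
    push Not at hbig
    have hcol : ∀ a, ∃ (f : ι) (c : F), a ∉ S → f ∉ S ∧ ap z e[a] = c • e[f] ∧ (c = 1 ∨ c = -1) := by
      intro a
      by_cases ha : a ∈ S
      · exact ⟨a, 0, fun h => absurd ha h⟩
      obtain ⟨f, hf⟩ := Function.ne_iff.mp (ap_ne_zero z (x := e[a]) (by simp))
      have he : ap z e[a] = ap z e[a] f • e[f] := funext fun l => by
        by_cases hl : l = f
        · subst hl; simp
        · have h0 : ap z e[a] l = 0 := by
            by_contra h0
            exact hl (card_le_one.mp (Nat.le_of_lt_succ (hbig a (mem_compl.mpr ha))) l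
              (mem_supp.mpr h0) f (mem_supp.mpr hf))
          simp [hl, h0]
      refine ⟨f, _, fun _ => ⟨fun hfS => hf (hout a ha f hfS), he, ?_⟩⟩
      have := dot_self_ap hzG e[a]
      rw [he] at this
      simp at this
      exact mul_self_eq_one_iff.mp this
    choose f c hfc using hcol
    let f' : ι → ι := fun a => if a ∈ S then a else f a
    have hf' : Function.Injective f' := by
      intro x y hxy
      simp only [f'] at hxy
      split_ifs at hxy with h1 h3 h3
      · exact hxy
      · exact absurd (hxy ▸ h1) (hfc y h3).1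
      · exact absurd (hxy ▸ h3 : f x ∈ S) (hfc x h1).1
      · have ex := (hfc x h1).2
        have ey := (hfc y h3).2
        rw [hxy] at ex
        have hyy : ap z e[x] = ap z ((c x * c y) • e[y]) := by
          rw [ap_smul, ey.1, ex.1, smul_smul]
          rcases ey.2 with h | h <;> rw [h] <;> congr 1 <;> ring
        by_contra hne
        have := congrFun (ap_injective z hyy) x
        simp [hne] at this
    obtain ⟨a₀, ha₀, b₀, hb₀, hab₀⟩ := one_lt_card.mp (show 1 < S.card by omega)
    let π₀ : Equiv.Perm ι := Equiv.ofBijective f' (Finite.injective_iff_bijective.mp hf')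
    obtain ⟨π, hπs, hπ⟩ : ∃ π : Equiv.Perm ι, Equiv.Perm.sign π = 1 ∧ ∀ a ∉ S, π a = f a := by
      have h0 : ∀ a ∉ S, π₀ a = f a := fun a ha => by simp [π₀, f', ha]
      rcases Int.units_eq_one_or (Equiv.Perm.sign π₀) with h | h
      · exact ⟨π₀, h, h0⟩
      · refine ⟨π₀ * Equiv.swap a₀ b₀, by rw [map_mul, h, Equiv.Perm.sign_swap hab₀]; rfl,
          fun a ha => ?_⟩
        rw [Equiv.Perm.mul_apply, Equiv.swap_apply_of_ne_of_ne (fun e => ha (by rw [e]; exact ha₀))
          (fun e => ha (by rw [e]; exact hb₀)), h0 a ha]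
    let d₀ : ι → Fˣ := fun i => if c (π.symm i) = 1 ∨ π.symm i ∈ S then 1 else -1
    set P := ∏ i, d₀ i with hPdef
    have hd₀ : ∀ i, d₀ i = 1 ∨ d₀ i = -1 := fun i => by simp only [d₀]; split_ifs <;> simp
    have hPv : P = 1 ∨ P = -1 := Finset.prod_induction _ (fun u : Fˣ => u = 1 ∨ u = -1)
      (by rintro x y (rfl | rfl) (rfl | rfl) <;> simp) (Or.inl rfl) fun i _ => hd₀ i
    let d : ι → Fˣ := fun i => (if i = π f₀ then P else 1) * d₀ i
    have hdd : mon π d ∈ X := by
      refine hM π d hπs (fun i => ?_) ?_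
      · simp only [d]
        rcases hd₀ i with e | e <;> rcases hPv with e' | e' <;> split_ifs <;> simp [e, e']
      · simp only [d]
        rw [Finset.prod_mul_distrib, Finset.prod_ite_eq' _ _ (fun _ => P), if_pos (mem_univ _), ← hPdef]
        rcases hPv with e | e <;> simp [e]
    refine ⟨(mon π d)⁻¹ * z, mul_mem (inv_mem hdd) hzX, fun hm => hzm ?_, ?_⟩
    · have := IsMon.mul ⟨π, d, rfl⟩ hm
      rwa [mul_inv_cancel_left] at this
    obtain ⟨a, ha⟩ : ∃ a, a ∉ S := by
      by_contra hc
      push Not at hc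
      have := card_le_card (show univ ⊆ S from fun a _ => hc a)
      rw [card_univ] at this; omega
    refine ⟨a, Or.inl ?_⟩
    apply ap_injective (mon π d)
    rw [← ap_mul, mul_inv_cancel_left, (hfc a ha).2.1, ap_mon_single, hπ a ha]
    have hne : f a ≠ π f₀ := fun e => ha (by
      rw [← hπ a ha] at e; rw [π.injective e]; exact hf₀)
    have hca : (d (f a) : F) = c a := by
      simp only [d, d₀, hne, if_false, one_mul]
      rw [show π.symm (f a) = a by rw [← hπ a ha, Equiv.symm_apply_apply]]
      rcases (hfc a ha).2.2 with e | e <;> simp [e, ha]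
      exact fun h => absurd (show (2 : F) = 0 by linear_combination -h) h2
    rw [hca]
    funext l
    by_cases hl : l = f a <;> simp [hl]
  -- the monomial case
  obtain ⟨π, c, hzmon⟩ := hzm
  have hcol : ∀ k, ap z e[k] = (c (π k) : F) • e[π k] := fun k => by
    rw [hzmon, ap_mon_single]
    funext l
    by_cases hl : l = π k <;> simp [hl]
  have hc1 : ∀ k, (c (π k) : F) = 1 ∨ (c (π k) : F) = -1 := fun k => by
    have := dot_self_ap hzG e[k]
    rw [hcol] at this
    simp at this
    exact mul_self_eq_one_iff.mp this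
  have hπS : ∀ k ∈ S, π k ∈ S := fun k hk => by
    by_contra h
    have := hin k hk _ h
    simp [hcol] at this
  have hπN : ∀ k ∉ S, π k ∉ S := fun k hk h => by
    have := hout k hk _ h
    simp [hcol] at this
  have hfixN : ∀ k ∉ S, ap z e[k] = e[k] := fun k hk => by
    obtain ⟨α, β, hαβ⟩ := hzmove e[k]
    obtain ⟨hjk, hc⟩ := hsmall (π k) (hπN k hk) k hk (c (π k)) α β (hc1 k)
      (fun l hl => by rw [← hαβ l hl, hcol])
    rw [hcol, hc, hjk, one_smul]
  have hkeep : ∀ (y : ι → F), ∀ l ∉ S, ap z y l = y l := fun y l hl => by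
    obtain ⟨k, rfl⟩ : ∃ k, π k = l := ⟨π.symm l, π.apply_symm_apply l⟩
    have hk : k ∉ S := fun h => hl (hπS k h)
    have h1 := hfixN k hk
    rw [hcol] at h1
    have hpk : π k = k := by
      by_contra hne
      have := congrFun h1 (π k)
      simp [hne] at this
    have hck : (c (π k) : F) = 1 := by
      have := congrFun h1 (π k)
      simpa [hpk] using this
    rw [hzmon, ap_mon, hck, one_mul, Equiv.symm_apply_apply, hpk]
  have hcond : ∀ k ∈ S, Cond p b S (ap z e[k] - e[k]) := by
    intro k hk l hl
    have h1 : ap h (ap z e[k]) - ap h e[k] = ap z (ap h e[k]) - ap h e[k] := by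
      rw [← ap_mul, ← hzh.eq, ap_mul]
    have h3 := congrFun h1 l
    rw [← ap_sub, hP.ap_eq] at h3
    simp only [Pi.sub_apply, Pi.smul_apply, smul_eq_mul, hkeep _ _ hl, sub_self] at h3
    refine (mul_eq_zero.mp (show (2 : F) * _ = 0 from ?_)).resolve_left h2
    linear_combination -h3
  by_cases hneg : ∃ k ∈ S, π k = k ∧ (c (π k) : F) = -1
  · obtain ⟨k, hk, hπk, hck⟩ := hneg
    refine Or.inr (Or.inl ⟨k, hk, fun l hl => ?_⟩)
    have := hcond k hk l hl
    rw [hcol, hck, hπk, neg_one_smul, show -(e[k] : ι → F) - e[k] = (-2 : F) • e[k] by module,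
      smul_dotProduct, smul_dotProduct, smul_eq_mul, smul_eq_mul] at this
    refine (mul_eq_zero.mp (show (-2 : F) * _ = 0 from ?_)).resolve_left (neg_ne_zero.mpr h2)
    linear_combination this
  push Not at hneg
  have hfixS : ∀ k ∈ S, π k = k → (c (π k) : F) = 1 := fun k hk hπk =>
    (hc1 k).resolve_right (hneg k hk hπk)
  have hinv : ∀ k, π (π k) = k ∧ (c (π (π k)) : F) * c (π k) = 1 := fun k => by
    have h1 : ap z (ap z e[k]) = e[k] := by rw [← ap_mul, hz2, ap_one]
    rw [hcol, ap_smul, hcol, smul_smul] at h1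
    have h3 : π (π k) = k := by
      by_contra hne
      have := congrFun h1 k
      simp [Ne.symm hne] at this
    refine ⟨h3, ?_⟩
    have := congrFun h1 k
    simp only [h3, Pi.smul_apply, Pi.single_eq_same, smul_eq_mul, mul_one] at this
    rw [h3, mul_comm]
    exact this
  refine Or.inr (Or.inr ⟨π, fun k hk => ?_⟩)
  have hmoved : π k ≠ k := by
    intro hπk
    -- some `a` moves, and then all four do
    obtain ⟨a, ha, hπa⟩ : ∃ a ∈ S, π a ≠ a := by
      by_contra hc
      push Not at hc
      refine hz1 (gl_ext fun x => funext fun l => ?_)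
      by_cases hl : l ∈ S
      · rw [hzmon, ap_mon, ap_one, π.symm_apply_eq.mpr (hc l hl).symm,
          show (c l : F) = 1 by have := hfixS l hl (hc l hl); rwa [hc l hl] at this, one_mul]
      · rw [hkeep x l hl, ap_one]
    obtain ⟨m, hm, hma, hmb, hmk⟩ : ∃ m ∈ S, m ≠ a ∧ m ≠ π a ∧ m ≠ k := by
      by_contra hc
      push Not at hc
      have hsub : S ⊆ {a, π a, k} := fun m hm => by
        simp only [mem_insert, mem_singleton]
        by_contra h
        simp only [not_or] at h
        exact h.2.2 (hc m hm h.1 h.2.1)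
      have := (card_le_card hsub).trans card_le_three
      omega
    have hka : k ≠ a := fun e => hπa (by rw [← e]; exact hπk)
    have hkb : k ≠ π a := fun e => hka (by
      have := congrArg π e
      rw [hπk, (hinv a).1] at this
      exact this)
    have hSeq : S = {a, π a, k, m} := (eq_of_subset_of_card_le (by
      intro x hx
      simp only [mem_insert, mem_singleton] at hx
      rcases hx with rfl | rfl | rfl | rfl
      exacts [ha, hπS _ ha, hk, hm]) (by
      rw [hS, card_insert_of_notMem (by simp [Ne.symm hπa, hka.symm, Ne.symm hma]),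
        card_insert_of_notMem (by simp [Ne.symm hkb, Ne.symm hmb]),
        card_pair (Ne.symm hmk)])).symm
    have hπm : π m = m := by
      have hm' := hπS m hm
      rw [hSeq] at hm'
      simp only [mem_insert, mem_singleton] at hm'
      rcases hm' with e | e | e | e
      · exact absurd (by rw [← (hinv m).1, e]) hmb
      · exact absurd (π.injective e) hma
      · exact absurd (π.injective (e.trans hπk.symm)) hmk
      · exact e
    have hswap : π = Equiv.swap a (π a) := Equiv.ext fun x => by
      by_cases hxa : x = a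
      · rw [hxa, Equiv.swap_apply_left]
      by_cases hxb : x = π a
      · rw [hxb, Equiv.swap_apply_right, (hinv a).1]
      rw [Equiv.swap_apply_of_ne_of_ne hxa hxb]
      by_cases hxS : x ∈ S
      · rw [hSeq] at hxS
        simp only [mem_insert, mem_singleton] at hxS
        rcases hxS with e | e | e | e
        exacts [absurd e hxa, absurd e hxb, by rw [e, hπk], by rw [e, hπm]]
      · by_contra hne
        have := congrFun (hfixN x hxS) x
        simp [hcol, Ne.symm hne] at this
    have hcmoved : (c a : F) * c (π a) = 1 := by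
      have := (hinv a).2; rwa [(hinv a).1] at this
    rw [hzmon, det_mon] at hzdet
    have hprod : ∏ x, (c x : F) = (c a : F) * c (π a) := by
      rw [← Finset.prod_pair (f := fun x => (c x : F)) (Ne.symm hπa)]
      refine (Finset.prod_subset (subset_univ _) fun x _ hx => ?_).symm
      simp only [mem_insert, mem_singleton, not_or] at hx
      have hπx : π x = x := by rw [hswap, Equiv.swap_apply_of_ne_of_ne hx.1 hx.2]
      by_cases hxS : x ∈ S
      · have := hfixS x hxS hπx; rwa [hπx] at this
      · have := congrFun (hfixN x hxS) x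
        simpa [hcol, hπx] using this
    rw [hprod, hcmoved, mul_one, hswap, Equiv.Perm.sign_swap (Ne.symm hπa)] at hzdet
    simp at hzdet
    exact h2 (by linear_combination -hzdet)
  refine ⟨hπS k hk, hmoved, (hinv k).1, c (π k), hc1 k, ?_⟩
  have := hcond k hk
  rwa [hcol] at this

end CfsgLib.OMon
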