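import Cfsg.Agent.Lib.Geometric.OrthMonomial.Basic

/-!
Products of two orthogonal reflections, conjugates of sign changes and of three-cycles, and the
central involution of two involutions of different kinds.
-/

set_option autoImplicit false

namespace CfsgLib.OMon

open CfsgLib.Geometric Finset Matrix

variable {ι : Type} [Fintype ι] [DecidableEq ι] {F : Type*} [Field F]

local notation "e[" j "]" => (Pi.single j (1 : _) : ι → _)

/-- The product of the reflections along two orthogonal anisotropic vectors. -/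
structure Plane (h : GL ι F) (p b : ι → F) : Prop where
  eq : h = rv p * rv b
  orth : p ⬝ᵥ b = 0
  hp : p ⬝ᵥ p ≠ 0
  hb : b ⬝ᵥ b ≠ 0

namespace Plane

variable {h : GL ι F} {p b : ι → F} (hP : Plane h p b)
include hP

lemma ap_eq (x : ι → F) :
    ap h x = x - (2 * (x ⬝ᵥ p) / (p ⬝ᵥ p)) • p - (2 * (x ⬝ᵥ b) / (b ⬝ᵥ b)) • b := by
  rw [hP.eq, ap_mul, ap_rv, ap_rv b, sub_dotProduct, smul_dotProduct, dotProduct_comm b p, hP.orth]
  simp only [smul_zero, sub_zero]
  module

lemma mem_GOs : h ∈ GOs ι F := hP.eq ▸ mul_mem (rv_mem _) (rv_mem _)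

lemma mul_self (h2 : (2 : F) ≠ 0) : h * h = 1 := by
  rw [hP.eq]
  nth_rewrite 2 [(commute_rv h2 hP.orth).eq]
  rw [mul_assoc, ← mul_assoc (rv b), rv_mul_self, one_mul, rv_mul_self]

lemma ap_fix {x : ι → F} (hxp : x ⬝ᵥ p = 0) (hxb : x ⬝ᵥ b = 0) : ap h x = x := by
  simp [hP.ap_eq, hxp, hxb]

lemma ap_fix_single {l : ι} (hp : p l = 0) (hb : b l = 0) : ap h e[l] = e[l] :=
  hP.ap_fix (by simp [hp]) (by simp [hb])

lemma conj (h2 : (2 : F) ≠ 0) {k : GL ι F} (hk : k ∈ GOs ι F) :
    Plane (k * h * k⁻¹) (ap k p) (ap k b) := by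
  refine ⟨?_, by rw [dot_ap h2 hk, hP.orth], by rw [dot_ap h2 hk]; exact hP.hp,
    by rw [dot_ap h2 hk]; exact hP.hb⟩
  rw [← conj_rv h2 hk, ← conj_rv h2 hk, hP.eq]
  group

lemma neg : Plane h (-p) b :=
  ⟨by rw [rv_neg]; exact hP.eq, by simp [hP.orth], by simpa using hP.hp, hP.hb⟩

lemma moved (h2 : (2 : F) ≠ 0) {k : ι} (hk : ap h e[k] = e[k]) : p k = 0 ∧ b k = 0 := by
  have h' := hP.ap_eq e[k]
  rw [hk, single_dotProduct, single_dotProduct, one_mul, one_mul] at h'
  have h1 := congrArg (· ⬝ᵥ p) h'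
  have h3 := congrArg (· ⬝ᵥ b) h'
  simp only [sub_dotProduct, smul_dotProduct, dotProduct_comm b p, hP.orth, smul_eq_mul,
    mul_zero, sub_zero, single_dotProduct, one_mul, div_mul_cancel₀ _ hP.hp,
    div_mul_cancel₀ _ hP.hb] at h1 h3
  exact ⟨(mul_eq_zero.mp (show 2 * p k = 0 by linear_combination h1)).resolve_left h2,
    (mul_eq_zero.mp (show 2 * b k = 0 by linear_combination h3)).resolve_left h2⟩

lemma card_le_four_of_isMon (h2 : (2 : F) ≠ 0) (hm : IsMon h) :
    (supp p ∪ supp b).card ≤ 4 := by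
  obtain ⟨π, c, rfl⟩ := hm
  let Φ : (ι → F) →ₗ[F] F × F :=
    { toFun := fun x => (x ⬝ᵥ p, x ⬝ᵥ b)
      map_add' := fun x y => by simp [add_dotProduct]
      map_smul' := fun a x => by simp [smul_dotProduct] }
  have h1 := Φ.finrank_range_add_finrank_ker
  have h3 : Module.finrank F (LinearMap.range Φ) ≤ 2 :=
    (Submodule.finrank_le _).trans_eq (by simp)
  have h4 : LinearMap.ker Φ ≤ fixSpace (mon π c) := fun x hx => by
    have hx' : (x ⬝ᵥ p, x ⬝ᵥ b) = (0, 0) := hx
    exact mem_fixSpace.mpr (hP.ap_fix (congrArg Prod.fst hx') (congrArg Prod.snd hx'))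
  have h5 := Submodule.finrank_mono h4
  rw [Module.finrank_fintype_fun_eq_card] at h1
  have h6 := card_fixed_mon (π := π) (c := c) (r := 2) (by omega) (s := (supp p ∪ supp b)ᶜ)
    fun m hm => by
      obtain ⟨e1, e2⟩ := hP.moved h2 hm
      simp [e1, e2]
  have h7 := card_compl (supp p ∪ supp b)
  have h8 := card_le_univ (supp p ∪ supp b)
  omega

end Plane

lemma det_rv {v : ι → F} (hv : v ⬝ᵥ v ≠ 0) : (rv v : Matrix ι ι F).det = -1 := by
  have h : (rv v : Matrix ι ι F) =
      1 + replicateCol Unit ((-(2 / (v ⬝ᵥ v))) • v) * replicateRow Unit v := by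
    refine Matrix.ext_of_mulVec_single fun j => ?_
    rw [← ap_def, ap_rv, add_mulVec, one_mulVec]
    funext i
    simp [Matrix.mul_apply, Pi.single_apply]
    ring
  rw [h, det_one_add_replicateCol_mul_replicateRow, dotProduct_smul, smul_eq_mul, neg_mul,
    div_mul_cancel₀ _ hv]
  ring

lemma plane_conj_dg (h2 : (2 : F) ≠ 0) {g : GL ι F} (hg : g ∈ GOs ι F) {a b : ι} (hab : a ≠ b) :
    Plane (g * dg F {a, b} * g⁻¹) (ap g e[a]) (ap g e[b]) :=
  Plane.conj ⟨dg_pair h2 hab, by simp [Pi.single_apply, hab], by simp, by simp⟩ h2 hg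

lemma exists_central {G : Type*} [Group G] [Finite G] {h d : G} (hh : h * h = 1) (hd : d * d = 1)
    (hnc : ∀ g ∈ Subgroup.closure ({h, d} : Set G), g * h * g⁻¹ ≠ d) :
    ∃ z ∈ Subgroup.closure ({h, d} : Set G), z ≠ 1 ∧ z * z = 1 ∧ Commute z h ∧ Commute z d ∧
      ∃ s : ℕ, z = (h * d) ^ s := by
  set t := h * d with ht
  have hmem : ∀ k : ℕ, t ^ k ∈ Subgroup.closure ({h, d} : Set G) := fun k =>
    pow_mem (mul_mem (Subgroup.subset_closure (by simp)) (Subgroup.subset_closure (by simp))) k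
  have hhi : h⁻¹ = h := inv_eq_of_mul_eq_one_right hh
  have hdi : d⁻¹ = d := inv_eq_of_mul_eq_one_right hd
  have htinv : t⁻¹ = d * h := by rw [ht, _root_.mul_inv_rev, hhi, hdi]
  have hconj : ∀ k : ℕ, h * t ^ k * h⁻¹ = (t ^ k)⁻¹ := fun k => by
    rw [← conj_pow, ← inv_pow]
    congr 1
    rw [htinv, hhi, ht, ← mul_assoc, hh, one_mul]
  have hm := orderOf_pos t
  rcases Nat.even_or_odd (orderOf t) with ⟨s, hs⟩ | ⟨s, hs⟩
  · have hz2 : t ^ s * t ^ s = 1 := by rw [← pow_add, ← hs, pow_orderOf_eq_one]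
    have hzh : Commute (t ^ s) h := by
      have := hconj s
      rw [inv_eq_of_mul_eq_one_right hz2, mul_inv_eq_iff_eq_mul] at this
      exact this.symm
    refine ⟨t ^ s, hmem s, pow_ne_one_of_lt_orderOf (by omega) (by omega), hz2, hzh, ?_, s, rfl⟩
    have hd' : d = h * t := by rw [ht, ← mul_assoc, hh, one_mul]
    rw [hd']
    exact hzh.mul_right (Commute.pow_self t s)
  · exfalso
    refine hnc _ (hmem s) ?_
    have h1 : h * (t ^ s)⁻¹ = t ^ s * h := by
      rw [← hconj s, hhi]; simp only [← mul_assoc, hh, one_mul]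
    have h3 : t ^ (s + s) = t⁻¹ :=
      eq_inv_of_mul_eq_one_left (by rw [← pow_succ, show s + s + 1 = orderOf t by omega,
        pow_orderOf_eq_one])
    rw [mul_assoc, h1, ← mul_assoc, ← pow_add, h3, htinv, mul_assoc, hh, mul_one]

lemma card_le_of_supp {g : GL ι F} {Z T : Finset ι}
    (h : ∀ c ∈ Z, ∀ i, i ∉ T → ap g e[c] i = 0) : Z.card ≤ T.card := by
  classical
  let W : Submodule F (ι → F) := Submodule.span F (Set.range fun c : Z => ap g e[(c : ι)])
  have h1 : Module.finrank F W = Z.card := by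
    have hli : LinearIndependent F fun c : Z => ap g e[(c : ι)] :=
      ((Pi.linearIndependent_single_one ι F).comp _ Subtype.val_injective).map'
        (apEquiv g).toLinearMap (apEquiv g).ker
    rw [finrank_span_eq_card hli, Fintype.card_coe]
  let Φ : W →ₗ[F] (T → F) :=
    (LinearMap.funLeft F F (Subtype.val : T → ι)).comp W.subtype
  have hzero : ∀ w ∈ W, ∀ i, i ∉ T → w i = 0 := by
    intro w hw i hi
    induction hw using Submodule.span_induction with
    | mem x hx => obtain ⟨c, rfl⟩ := hx; exact h c c.2 i hi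
    | zero => rfl
    | add x y _ _ hx hy => simp [hx, hy]
    | smul a x _ hx => simp [hx]
  have hinj : Function.Injective Φ := by
    intro x y hxy
    refine Subtype.ext (funext fun i => ?_)
    by_cases hi : i ∈ T
    · exact congrFun hxy ⟨i, hi⟩
    · rw [hzero _ x.2 i hi, hzero _ y.2 i hi]
  have := LinearMap.finrank_le_finrank_of_injective hinj
  rw [h1] at this
  simpa [Module.finrank_fintype_fun_eq_card] using this

lemma ap_inv_entry (h2 : (2 : F) ≠ 0) {g : GL ι F} (hg : g ∈ GOs ι F) (a i : ι) :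
    ap g⁻¹ e[i] a = ap g e[a] i := by
  have := dot_ap h2 hg (ap g⁻¹ e[i]) e[a]
  rw [ap_ap_inv, single_dotProduct, one_mul, dotProduct_single, mul_one] at this
  exact this.symm

section Conj

variable (h2 : (2 : F) ≠ 0) {X : Subgroup (GL ι F)} (hM : MonX X) {g : GL ι F}
  (hg : g ∈ GOs ι F) {A : Finset ι} (hA : 5 ≤ A.card)
include h2 hg hA

/-- If all conjugates of sign changes on `A` are monomial, the columns at `A` are short. -/
lemma supp_col_le_two (hmon : ∀ a ∈ A, ∀ b ∈ A, a ≠ b → IsMon (g * dg F {a, b} * g⁻¹))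
    {a : ι} (ha : a ∈ A) : (supp (ap g e[a])).card ≤ 2 := by
  by_contra hc
  set S := supp (ap g e[a]) with hS
  have hS4 : S.card ≤ 4 := by
    obtain ⟨b, hb, hba⟩ := exists_mem_ne (show 1 < A.card by omega) a
    exact (card_le_card subset_union_left).trans
      ((plane_conj_dg h2 hg (Ne.symm hba)).card_le_four_of_isMon h2 (hmon a ha b hb (Ne.symm hba)))
  have key : ∀ b ∈ A, ∀ i, i ∉ S → ap g e[b] i = 0 := by
    intro b hb i hi
    by_cases hab : a = b
    · subst hab; exact eq_zero_of_notMem_supp hi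
    by_contra hvi
    have hP := plane_conj_dg h2 hg hab
    set u := ap g e[a] with hu
    set v := ap g e[b] with hv
    have huu : u ⬝ᵥ u = 1 := by rw [hu, dot_ap h2 hg]; simp
    have hvv : v ⬝ᵥ v = 1 := by rw [hv, dot_ap h2 hg]; simp
    have hcol := supp_col_mon (hmon a ha b hb hab)
    have hval : ∀ k l, l ≠ k → ap (g * dg F {a, b} * g⁻¹) e[k] l =
        -2 * u k * u l - 2 * v k * v l := fun k l hlk => by
      rw [hP.ap_eq, single_dotProduct, single_dotProduct, huu, hvv]
      simp [hlk]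
    have hui : u i = 0 := eq_zero_of_notMem_supp hi
    have hone : ∀ l l', l ≠ i → l' ≠ i → v l ≠ 0 → v l' ≠ 0 → l = l' := by
      intro l l' hl hl' h1 h1'
      refine card_le_one.mp (hcol i) l ?_ l' ?_ <;> rw [mem_supp, hval i _ (by assumption), hui] <;>
        simp [h2, hvi, h1, h1']
    obtain ⟨k, hk, hvk⟩ : ∃ k ∈ S, v k = 0 := by
      by_contra hall
      push Not at hall
      obtain ⟨l, hl, l', hl', hne⟩ := one_lt_card.mp (show 1 < S.card by omega)
      exact hne (hone l l' (fun e => hi (e ▸ hl)) (fun e => hi (e ▸ hl')) (hall l hl) (hall l' hl'))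
    obtain ⟨l, hl, l', hl', hne⟩ := one_lt_card.mp (show 1 < (S.erase k).card by
      rw [card_erase_of_mem hk]; omega)
    rw [mem_erase] at hl hl'
    rw [hS, mem_supp] at hk hl hl'
    refine hne (card_le_one.mp (hcol k) l ?_ l' ?_) <;>
      rw [mem_supp, hval k _ (by tauto), hvk] <;>
      simp [h2, hk, hl.2, hl'.2]
  have := card_le_of_supp key
  omega

include hM in
/-- A conjugate of a sign change on `A` or a conjugate of a three-cycle is not monomial. -/
lemma exists_conj (hgX : g ∈ X) (hn : 7 ≤ Fintype.card ι)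
    (hpres : ∀ a ∉ A, ∀ i ∈ A, ap g e[a] i = 0) (hpres' : ∀ a ∈ A, ∀ i ∉ A, ap g e[a] i = 0)
    (hgn : ∃ a ∈ A, 2 ≤ (supp (ap g e[a])).card) :
    (∃ a ∈ A, ∃ b ∈ A, a ≠ b ∧ ¬ IsMon (g * dg F {a, b} * g⁻¹)) ∨ Fix X := by
  by_cases hmon : ∀ a ∈ A, ∀ b ∈ A, a ≠ b → IsMon (g * dg F {a, b} * g⁻¹)
  swap
  · left; push Not at hmon; exact hmon
  right
  obtain ⟨a, ha, ha2⟩ := hgn
  have hle : ∀ x ∈ A, (supp (ap g e[x])).card ≤ 2 := fun x hx => supp_col_le_two h2 hg hA hmon hx
  obtain ⟨i, j, hij, hS⟩ := card_eq_two.mp (le_antisymm (hle a ha) ha2)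
  have hai : ap g e[a] i ≠ 0 := mem_supp.mp (hS ▸ by simp)
  have haj : ap g e[a] j ≠ 0 := mem_supp.mp (hS ▸ by simp)
  have hamem : ∀ l, l ≠ i → l ≠ j → ap g e[a] l = 0 := fun l h1 h3 =>
    eq_zero_of_notMem_supp (by rw [hS]; simp [h1, h3])
  have hiA : i ∈ A := by_contra fun h => hai (hpres' a ha i h)
  have hjA : j ∈ A := by_contra fun h => haj (hpres' a ha j h)
  have hshare : ∀ x, x ≠ a → (ap g e[x] i ≠ 0 ∨ ap g e[x] j ≠ 0) →
      x ∈ A ∧ supp (ap g e[x]) = {i, j} := by
    intro x hxa hx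
    have hxA : x ∈ A := by
      by_contra h
      rcases hx with h' | h'
      exacts [h' (hpres x h i hiA), h' (hpres x h j hjA)]
    refine ⟨hxA, (eq_of_subset_of_card_le ?_ (by rw [card_pair hij]; exact hle x hxA)).symm⟩
    have h0 : ap g e[a] ⬝ᵥ ap g e[x] = 0 := by rw [dot_ap h2 hg]; simp [Pi.single_apply, hxa]
    have hdot : ap g e[a] i * ap g e[x] i + ap g e[a] j * ap g e[x] j = 0 := by
      rw [← h0]
      refine (Finset.sum_pair (f := fun l => ap g e[a] l * ap g e[x] l) hij).symm.trans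
        (Finset.sum_subset (subset_univ {i, j}) fun l _ hl => ?_)
      simp only [mem_insert, mem_singleton, not_or] at hl
      rw [hamem l hl.1 hl.2, zero_mul]
    intro m hm
    rw [mem_supp]
    intro h
    simp only [mem_insert, mem_singleton] at hm
    rcases hm with rfl | rfl <;> simp [h, hai, haj] at hdot <;> simp [h, hdot] at hx
  obtain ⟨b, hba, hbi⟩ : ∃ b, b ≠ a ∧ ap g e[b] i ≠ 0 := by
    by_contra hc
    push Not at hc
    have hrow : ap g⁻¹ e[i] = (ap g e[a] i) • e[a] := funext fun l => by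
      rw [ap_inv_entry h2 hg]
      by_cases hl : l = a
      · subst hl; simp
      · simp [hl, hc l hl]
    have := congrFun (congrArg (ap g) hrow) j
    rw [ap_ap_inv, ap_smul] at this
    simp [hij.symm, hai, haj] at this
  obtain ⟨hbA, hbS⟩ := hshare b hba (Or.inl hbi)
  have hbmem : ∀ l, l ≠ i → l ≠ j → ap g e[b] l = 0 := fun l h1 h3 =>
    eq_zero_of_notMem_supp (by rw [hbS]; simp [h1, h3])
  have hrest : ∀ x, x ≠ a → x ≠ b → ap g e[x] i = 0 ∧ ap g e[x] j = 0 := by
    intro x hxa hxb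
    by_contra hc
    obtain ⟨-, hxS⟩ := hshare x hxa (not_and_or.mp hc)
    have := card_le_of_supp (g := g) (Z := {a, b, x}) (T := {i, j}) fun y hy m hm => by
      simp only [mem_insert, mem_singleton] at hy
      refine eq_zero_of_notMem_supp ?_
      rcases hy with rfl | rfl | rfl <;> simp only [hS, hbS, hxS] <;> exact hm
    rw [card_eq_three.mpr ⟨a, b, x, Ne.symm hba, Ne.symm hxa, Ne.symm hxb, rfl⟩,
      card_pair hij] at this
    omega
  obtain ⟨c, hc, d, hd, hcd⟩ := one_lt_card.mp (show 1 < ((A.erase a).erase b).card by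
    have := pred_card_le_card_erase (s := A.erase a) (a := b)
    rw [card_erase_of_mem ha] at this
    omega)
  simp only [mem_erase] at hc hd
  set π := Equiv.swap a c * Equiv.swap c d with hπ
  have hsgn : Equiv.Perm.sign π = 1 := by
    rw [hπ, map_mul, Equiv.Perm.sign_swap (Ne.symm hc.2.1), Equiv.Perm.sign_swap hcd]; decide
  have hπa : π a = c := by
    rw [hπ, Equiv.Perm.mul_apply, Equiv.swap_apply_of_ne_of_ne (Ne.symm hc.2.1) (Ne.symm hd.2.1),
      Equiv.swap_apply_left]
  have hfix : ∀ l, l ≠ a → l ≠ c → l ≠ d → π l = l := fun l h1 h3 h4 => by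
    rw [hπ, Equiv.Perm.mul_apply, Equiv.swap_apply_of_ne_of_ne h3 h4,
      Equiv.swap_apply_of_ne_of_ne h1 h3]
  set z := g * pm F π * g⁻¹ with hz
  have hzap : ∀ v, ap z (ap g v) = ap g (ap (pm F π) v) := fun v => by
    rw [hz, ap_mul, ap_inv_ap, ap_mul]
  refine ⟨z, mul_mem (mul_mem hgX (pm_mem hM hsgn)) (inv_mem hgX), fun hzm => ?_, ?_⟩
  · have hrow : ap g⁻¹ e[i] = ap g e[a] i • e[a] + ap g e[b] i • e[b] := funext fun l => by
      rw [ap_inv_entry h2 hg]
      by_cases hl : l = a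
      · subst hl; simp [Ne.symm hba]
      by_cases hl' : l = b
      · subst hl'; simp [hba]
      simp [hl, hl', (hrest l hl hl').1]
    have hval : ap z e[i] = ap g e[a] i • ap g e[c] + ap g e[b] i • ap g e[b] := by
      conv_lhs => rw [← ap_ap_inv g e[i], hrow]
      rw [hzap, ap_add, ap_smul, ap_smul, ap_pm_single, ap_pm_single, hπa,
        hfix b hba (Ne.symm hc.1) (Ne.symm hd.1), ap_add, ap_smul, ap_smul]
    obtain ⟨m, hm⟩ := Function.ne_iff.mp (ap_ne_zero g (x := e[c]) (by simp))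
    have hmi : m ≠ i := fun e => hm (by rw [e]; exact (hrest c hc.2.1 hc.1).1)
    have hmj : m ≠ j := fun e => hm (by rw [e]; exact (hrest c hc.2.1 hc.1).2)
    refine hmi (card_le_one.mp (supp_col_mon hzm i) m ?_ i ?_) <;>
      rw [mem_supp, hval, Pi.add_apply, Pi.smul_apply, Pi.smul_apply, smul_eq_mul, smul_eq_mul]
    · rw [hbmem m hmi hmj, mul_zero, add_zero]
      exact mul_ne_zero hai hm
    · rw [(hrest c hc.2.1 hc.1).1, mul_zero, zero_add]
      exact mul_ne_zero hbi hbi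
  · obtain ⟨o, ho⟩ : ∃ o, o ∉ supp (ap g e[a]) ∪ supp (ap g e[c]) ∪ supp (ap g e[d]) := by
      by_contra hc'
      push Not at hc'
      have h1 := card_le_card (show univ ⊆ _ from fun o _ => hc' o)
      have h3 := card_union_le (supp (ap g e[a]) ∪ supp (ap g e[c])) (supp (ap g e[d]))
      have h4 := card_union_le (supp (ap g e[a])) (supp (ap g e[c]))
      have := hle a ha
      have := hle c hc.2.2
      have := hle d hd.2.2
      rw [card_univ] at h1
      omega
    simp only [mem_union, mem_supp, not_or, not_not] at ho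
    refine ⟨o, Or.inl ?_⟩
    conv_lhs => rw [← ap_ap_inv g e[o]]
    rw [hzap, ap_eq_of_cols (g := pm F π) ?_, ap_ap_inv]
    intro l hl
    rw [ap_inv_entry h2 hg] at hl
    rw [ap_pm_single, hfix l] <;> rintro rfl
    exacts [hl ho.1.1, hl ho.1.2, hl ho.2]

end Conj

end CfsgLib.OMon
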